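import Mathlib
import Cfsg.Agent.Base
import Cfsg.Agent.Lib.Rk3C.Defs
import Cfsg.Agent.Lib.PGroup.Basic

/-! Groups of 2-rank 3: transvections on an `E₈`, weakly closed `E₈`. -/

set_option autoImplicit false
set_option linter.unusedSectionVars false
set_option linter.unusedVariables false

namespace H22.RG

open Subgroup H69 H70 Cfsg H22.RK
open scoped commutatorElement Pointwise

variable {G : Type*} [Group G] [Finite G] {S T V X U : Subgroup G} {z t c y v : G}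

/-- `t` acts on `X = ⟨c, y, v⟩` as the transvection with centre `c` and axis `⟨c, y⟩`. -/
structure Tr (X : Subgroup G) (t c y v : G) : Prop where
  e8 : E8 X
  cX : c ∈ X
  yX : y ∈ X
  vX : v ∈ X
  ind : Ind c y v
  tc : t * c * t⁻¹ = c
  ty : t * y * t⁻¹ = y
  tv : t * v * t⁻¹ = v * c

theorem cj_mul (t a b : G) : t * (a * b) * t⁻¹ = t * a * t⁻¹ * (t * b * t⁻¹) := by group

theorem comm_of_cj {t a : G} (h : t * a * t⁻¹ = a) : t * a = a * t := mul_inv_eq_iff_eq_mul.1 h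

theorem cj_of_comm {t a : G} (h : t * a = a * t) : t * a * t⁻¹ = a := mul_inv_eq_iff_eq_mul.2 h

theorem cj_symm {t a : G} (h : t * a * t⁻¹ = a) : a * t * a⁻¹ = t := cj_of_comm (comm_of_cj h).symm

namespace Tr

theorem c1 (h : Tr X t c y v) : c ≠ 1 := h.ind.1

theorem c2 (h : Tr X t c y v) : c * c = 1 := h.e8.sq c h.cX

theorem cm (h : Tr X t c y v) {a b : G} (ha : a ∈ X) (hb : b ∈ X) : a * b = b * a := comm_of_sq h.e8.sq ha hb

/-- every element is fixed or moved by `c`. -/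
theorem act (h : Tr X t c y v) {x : G} (hx : x ∈ X) :
    ((x = 1 ∨ x = c ∨ x = y ∨ x = c * y) ∧ t * x * t⁻¹ = x) ∨ t * x * t⁻¹ = x * c := by
  have e : ∀ w ∈ X, t * w * t⁻¹ = w → t * (w * v) * t⁻¹ = w * v * c := fun w hw e => by
    rw [cj_mul, e, h.tv, mul_assoc]
  have e2 : t * (c * y) * t⁻¹ = c * y := by rw [cj_mul, h.tc, h.ty]
  rcases h.e8.cases h.cX h.yX h.vX h.ind hx with rfl | rfl | rfl | rfl | rfl | rfl | rfl | rfl
  · exact .inl ⟨.inl rfl, by simp⟩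
  · exact .inl ⟨by simp, h.tc⟩
  · exact .inl ⟨by simp, h.ty⟩
  · exact .inl ⟨by simp, e2⟩
  · exact .inr h.tv
  · exact .inr (e _ h.cX h.tc)
  · exact .inr (e _ h.yX h.ty)
  · exact .inr (e _ (mul_mem h.cX h.yX) e2)

theorem act' (h : Tr X t c y v) {x : G} (hx : x ∈ X) : t * x * t⁻¹ = x ∨ t * x * t⁻¹ = x * c :=
  (h.act hx).imp (·.2) id

theorem fix (h : Tr X t c y v) {x : G} (hx : x ∈ X) (e : t * x * t⁻¹ = x) : x = 1 ∨ x = c ∨ x = y ∨ x = c * y :=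
  ((h.act hx).resolve_right fun e' => h.c1 (by rw [e] at e'; simpa using e')).1

theorem not_cent (h : Tr X t c y v) : t ∉ 𝐂(X) := fun e => h.c1 (by
  have := h.tv
  rw [conj_eq_of_mem_centralizer e h.vX] at this
  simpa using this)

/-- another choice of the second basis vector. -/
theorem chg (h : Tr X t c y v) {y' : G} (hy : y' ∈ X) (e : t * y' * t⁻¹ = y') (h1 : y' ≠ 1) (h2 : y' ≠ c) :
    Tr X t c y' v := by
  have nv : ∀ w : G, t * w * t⁻¹ = w → v ≠ w := fun w e e' => h.c1 (by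
    have := h.tv
    rw [e', e] at this
    simpa using this)
  exact ⟨h.e8, h.cX, hy, h.vX, ⟨h.c1, h1, h2, nv 1 (by simp), nv _ h.tc, nv _ e,
    nv _ (by rw [cj_mul, h.tc, e])⟩, h.tc, e, h.tv⟩

/-- the centre is fixed by everything that centralises `t` and normalises `X`. -/
theorem cent_fix (h : Tr X t c y v) {g : G} (hg : g ∈ 𝐍(X)) (e : g * t * g⁻¹ = t) : g * c * g⁻¹ = c := by
  have h1 : t * (g * v * g⁻¹) * t⁻¹ = g * v * g⁻¹ * (g * c * g⁻¹) := by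
    rw [← cj_mul, ← h.tv]
    conv_lhs => rw [← e]
    group
  rcases h.act' (conj_mem_of_mem_normalizer hg h.vX) with e' | e' <;> rw [h1] at e'
  · exact absurd (by simpa using e') h.c1
  · exact mul_left_cancel e'

end Tr

theorem exists_tr (hX : E8 X) (hn : t ∈ 𝐍(X)) (h2 : t * t ∈ 𝐂(X)) (h1 : t ∉ 𝐂(X)) : ∃ c y v, Tr X t c y v := by
  have cm := fun a b (ha : a ∈ X) (hb : b ∈ X) => comm_of_sq hX.sq ha hb
  have cjm := fun a (ha : a ∈ X) => conj_mem_of_mem_normalizer hn ha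
  have fx : ∀ x ∈ X, t * (x * (t * x * t⁻¹)) * t⁻¹ = x * (t * x * t⁻¹) := fun x hx => by
    have : t * (t * x * t⁻¹) * t⁻¹ = x := by
      rw [← conj_eq_of_mem_centralizer h2 hx, conj_eq_of_mem_centralizer h2 hx]
      conv_rhs => rw [← conj_eq_of_mem_centralizer h2 hx]
      group
    rw [cj_mul, this, cm _ _ (cjm x hx) hx]
  obtain ⟨v, hv, e⟩ : ∃ v ∈ X, t * v * t⁻¹ ≠ v := by
    by_contra! hc
    exact h1 (mem_centralizer_iff_commute.2 fun a ha => (comm_of_cj (hc a ha)).symm)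
  obtain ⟨c, hc⟩ : ∃ c, c = v * (t * v * t⁻¹) := ⟨_, rfl⟩
  have cX : c ∈ X := hc ▸ mul_mem hv (cjm v hv)
  have tc : t * c * t⁻¹ = c := hc ▸ fx v hv
  have tv : t * v * t⁻¹ = v * c := by rw [hc, ← mul_assoc, hX.sq v hv, one_mul]
  have c1 : c ≠ 1 := fun e' => e (by rw [tv, e', mul_one])
  have nv : ∀ w : G, t * w * t⁻¹ = w → v ≠ w := fun w e1 e' => e (e' ▸ e1)
  have mk : ∀ y ∈ X, t * y * t⁻¹ = y → y ≠ 1 → y ≠ c → ∃ c y v, Tr X t c y v := fun y hy ty y1 yc =>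
    ⟨c, y, v, hX, cX, hy, hv, ⟨c1, y1, yc, nv 1 (by simp), nv _ tc, nv _ ty, nv _ (by rw [cj_mul, tc, ty])⟩,
      tc, ty, tv⟩
  obtain ⟨u, hu, -, -, -, u1, uc, uv, ucv⟩ := hX.ext3 cX hv c1 (nv 1 (by simp)) (nv _ tc)
  have tu : t * u * t⁻¹ = u * (u * (t * u * t⁻¹)) := by rw [← mul_assoc, hX.sq u hu, one_mul]
  by_cases d1 : u * (t * u * t⁻¹) = 1
  · exact mk u hu (by rw [tu, d1, mul_one]) u1 uc
  by_cases d2 : u * (t * u * t⁻¹) = c
  · refine mk (u * v) (mul_mem hu hv) ?_ (fun e' => uv ?_) fun e' => ucv ?_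
    · rw [cj_mul, tu, d2, tv, mul_assoc, cm v c hv cX, ← mul_assoc c, hX.sq c cX, one_mul]
    · rw [mul_eq_one_iff_eq_inv.1 e', inv_of_sq (hX.sq v hv)]
    · rw [← e', mul_assoc, hX.sq v hv, mul_one]
  · exact mk _ (mul_mem hu (cjm u hu)) (fx u hu) d1 d2

/-- no nontrivial abelian subgroup is strongly closed in `S`. -/
def NSC (S : Subgroup G) : Prop :=
  ∀ A : Subgroup G, A ≠ ⊥ → IsMulCommutative A → ¬ IsStronglyClosed A S

theorem NSC.exists (h : NSC S) (hX : X ≤ S) (h1 : X ≠ ⊥) (h2 : ∀ a ∈ X, a * a = 1) :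
    ∃ x ∈ X, ∃ g : G, g * x * g⁻¹ ∈ S ∧ g * x * g⁻¹ ∉ X := by
  by_contra! hc
  exact h X h1 ⟨⟨fun a b => Subtype.ext (comm_of_sq h2 a.2 b.2)⟩⟩ ⟨hX, hc⟩

theorem e8_cj (h : E8 V) (g : G) : E8 (V ^ᶜ g) :=
  ⟨fun a ha => by
    obtain ⟨b, hb, rfl⟩ := mem_cj'.1 ha
    rw [← cj_mul, h.sq b hb]
    simp, by rw [card_cj, h.card]⟩

theorem sq_cj {a : G} (g : G) (h : a * a = 1) : g * a * g⁻¹ * (g * a * g⁻¹) = 1 := by
  rw [← cj_mul, h]
  simp

theorem isP_zp {a : G} (h : a * a * (a * a) = 1) : IsPGroup 2 (zpowers a) := by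
  have : orderOf a ∣ 2 ^ 2 := orderOf_dvd_of_pow_eq_one (by rw [← h]; simp [pow_succ, mul_assoc])
  obtain ⟨k, -, hk⟩ := (Nat.dvd_prime_pow Nat.prime_two).1 this
  exact IsPGroup.of_card (by rw [Nat.card_zpowers, hk])

/-- an element of a 2-group outside `K` has a power outside `K` whose square is in `K`. -/
theorem exists_pow_sq {K : Subgroup G} {a : G} {k : ℕ} (h : a ^ 2 ^ k ∈ K) (ha : a ∉ K) :
    ∃ n : ℕ, a ^ n ∉ K ∧ a ^ n * a ^ n ∈ K := by
  induction k with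
  | zero => exact absurd (by simpa using h) ha
  | succ k ih =>
    by_cases e : a ^ 2 ^ k ∈ K
    · exact ih e
    · exact ⟨_, e, by rwa [← pow_add, ← two_mul, ← pow_succ']⟩

end H22.RG
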