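import Mathlib
import Cfsg.Agent.Base
import Cfsg.Agent.Lib.Rk3G.Tr

/-! Groups of 2-rank 3: more tools on transvections. -/

set_option autoImplicit false
set_option linter.unusedSectionVars false
set_option linter.unusedVariables false

namespace H22.RG

open Subgroup H69 H70 Cfsg H22.RK
open scoped commutatorElement Pointwise

variable {G : Type*} [Group G] [Finite G] {S T V X U F : Subgroup G} {z t c y v w k v₁ g : G}

theorem mcs {a b : G} : a ∈ centralizer ({b} : Set G) ↔ a * b * a⁻¹ = b := by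
  rw [mem_centralizer_singleton_iff]
  exact ⟨cj_of_comm, comm_of_cj⟩

theorem nrm_of (h : ∀ x ∈ X, g * x * g⁻¹ ∈ X) : g ∈ 𝐍(X) :=
  mem_normalizer_of_cj_le fun x hx => by
    obtain ⟨a, ha, rfl⟩ := mem_cj'.1 hx
    exact h a ha

theorem nrm2 {a b : G} (ha : g * a * g⁻¹ ∈ zpowers a ⊔ zpowers b) (hb : g * b * g⁻¹ ∈ zpowers a ⊔ zpowers b) :
    g ∈ 𝐍(zpowers a ⊔ zpowers b) :=
  mem_normalizer_of_cj_le (by
    rw [cj_sup, cj_zpowers, cj_zpowers]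
    exact sup_le (zpowers_le.2 ha) (zpowers_le.2 hb))

theorem nrm3 {a b c : G} (ha : g * a * g⁻¹ ∈ sp3 a b c) (hb : g * b * g⁻¹ ∈ sp3 a b c)
    (hc : g * c * g⁻¹ ∈ sp3 a b c) : g ∈ 𝐍(sp3 a b c) :=
  mem_normalizer_of_cj_le (by
    rw [sp3, cj_sup, cj_sup, cj_zpowers, cj_zpowers, cj_zpowers]
    exact sup_le (sup_le (zpowers_le.2 ha) (zpowers_le.2 hb)) (zpowers_le.2 hc))

theorem m2l (a b : G) : a ∈ zpowers a ⊔ zpowers b := mem_sup_left (mem_zpowers a)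

theorem m2r (a b : G) : b ∈ zpowers a ⊔ zpowers b := mem_sup_right (mem_zpowers b)

theorem m31 (a b c : G) : a ∈ sp3 a b c := mem_sup_left (m2l a b)

theorem m32 (a b c : G) : b ∈ sp3 a b c := mem_sup_left (m2r a b)

theorem m33 (a b c : G) : c ∈ sp3 a b c := mem_sup_right (mem_zpowers c)

theorem cent3 {a b c x : G} (ha : x * a * x⁻¹ = a) (hb : x * b * x⁻¹ = b) (hc : x * c * x⁻¹ = c) :
    x ∈ 𝐂(sp3 a b c) :=
  cent_sup (cent_sup (cent_zpowers (comm_of_cj ha).symm) (cent_zpowers (comm_of_cj hb).symm))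
    (cent_zpowers (comm_of_cj hc).symm)

theorem E8.le_cent (h : E8 V) : V ≤ 𝐂(V) := fun a ha =>
  mem_centralizer_iff_commute.2 fun b hb => comm_of_sq h.sq hb ha

theorem E8.cj (h : E8 V) {a b : G} (ha : a ∈ V) (hb : b ∈ V) : a * b * a⁻¹ = b :=
  conj_eq_of_mem_centralizer (E8.le_cent h ha) hb

/-- an element of `N` outside `K` that is central modulo `K`. -/
theorem cmod {N K : Subgroup G} (hS : IsPGroup 2 S) (h1 : N ≤ S) (h2 : S ≤ 𝐍(N)) (h3 : ¬ N ≤ K) :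
    ∃ x ∈ N, x ∉ K ∧ ∀ g ∈ S, x * g * x⁻¹ * g⁻¹ ∈ K := by
  haveI := hS.isNilpotent
  haveI := H22.nrm h2
  obtain ⟨x, hx, hx', e⟩ := H5.exists_central_mod_of_nilpotent (K.subgroupOf S) (N.subgroupOf S)
    (fun e => h3 ((subgroupOf_le_subgroupOf_iff h1).1 e))
  exact ⟨x, hx, hx', fun g hg => e ⟨g, hg⟩⟩

namespace Tr

theorem wX (h : Tr X t c y v) : c * y ∈ X := mul_mem h.cX h.yX

theorem y1 (h : Tr X t c y v) : y ≠ 1 := h.ind.2.1

theorem yc (h : Tr X t c y v) : y ≠ c := h.ind.2.2.1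

theorem y2 (h : Tr X t c y v) : y * y = 1 := h.e8.sq y h.yX

theorem v2 (h : Tr X t c y v) : v * v = 1 := h.e8.sq v h.vX

theorem tw (h : Tr X t c y v) : t * (c * y) * t⁻¹ = c * y := by rw [cj_mul, h.tc, h.ty]

theorem not_mem (h : Tr X t c y v) : t ∉ X := fun e => h.not_cent (E8.le_cent h.e8 e)

/-- `v` moves `t` by the centre. -/
theorem vt (h : Tr X t c y v) : v * t * v⁻¹ = c * t := by
  have e : t * v = v * c * t := by rw [← h.tv]; group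
  rw [inv_of_sq h.v2, mul_assoc, e, ← mul_assoc, ← mul_assoc, h.v2, one_mul]

theorem xt (h : Tr X t c y v) {x : G} (hx : x ∈ X) : x * t * x⁻¹ = t ∨ x * t * x⁻¹ = c * t := by
  refine (h.act' hx).imp cj_symm fun e => ?_
  have e' : t * x = x * c * t := by rw [← e]; group
  rw [inv_of_sq (h.e8.sq x hx), mul_assoc, e', ← mul_assoc, ← mul_assoc, h.e8.sq x hx, one_mul]

theorem indE (h : Tr X t c y v) : Ind c y t :=
  ⟨h.c1, h.y1, h.yc, fun e => h.not_mem (e ▸ one_mem _), fun e => h.not_mem (e ▸ h.cX),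
    fun e => h.not_mem (e ▸ h.yX), fun e => h.not_mem (e ▸ h.wX)⟩

theorem e8E (h : Tr X t c y v) (t2 : t * t = 1) : E8 (sp3 c y t) :=
  e8_sp3 h.c2 h.y2 t2 (h.cm h.cX h.yX) (comm_of_cj h.tc).symm (comm_of_cj h.ty).symm h.indE

theorem memE (h : Tr X t c y v) (t2 : t * t = 1) {x : G} : x ∈ sp3 c y t ↔
    x = 1 ∨ x = c ∨ x = y ∨ x = c * y ∨ x = t ∨ x = c * t ∨ x = y * t ∨ x = c * y * t :=
  mem_sp3 h.c2 h.y2 t2 (h.cm h.cX h.yX) (comm_of_cj h.tc).symm (comm_of_cj h.ty).symm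

theorem memW (h : Tr X t c y v) {x : G} : x ∈ zpowers c ⊔ zpowers y ↔ x = 1 ∨ x = c ∨ x = y ∨ x = c * y :=
  mem_sp2 h.c2 h.y2 (h.cm h.cX h.yX)

theorem W_le (h : Tr X t c y v) : zpowers c ⊔ zpowers y ≤ X := sup_le (zpowers_le.2 h.cX) (zpowers_le.2 h.yX)

theorem fixW (h : Tr X t c y v) {x : G} (hx : x ∈ zpowers c ⊔ zpowers y) : t * x * t⁻¹ = x := by
  rcases h.memW.1 hx with rfl | rfl | rfl | rfl
  exacts [by simp, h.tc, h.ty, h.tw]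

/-- elements of `E` outside `W` are in `W t`. -/
theorem memE' (h : Tr X t c y v) (t2 : t * t = 1) {x : G} (hx : x ∈ sp3 c y t) :
    x ∈ zpowers c ⊔ zpowers y ∨ ∃ u ∈ zpowers c ⊔ zpowers y, x = u * t := by
  rcases (h.memE t2).1 hx with rfl | rfl | rfl | rfl | rfl | rfl | rfl | rfl
  · exact .inl (one_mem _)
  · exact .inl (m2l _ _)
  · exact .inl (m2r _ _)
  · exact .inl (mul_mem (m2l _ _) (m2r _ _))
  · exact .inr ⟨1, one_mem _, by simp⟩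
  · exact .inr ⟨_, m2l _ _, rfl⟩
  · exact .inr ⟨_, m2r _ _, rfl⟩
  · exact .inr ⟨_, mul_mem (m2l _ _) (m2r _ _), rfl⟩

/-- multiplying by an element that centralises `X`. -/
theorem mul (h : Tr X t c y v) {a : G} (ha : a ∈ 𝐂(X)) : Tr X (a * t) c y v := by
  have e : ∀ x x', x' ∈ X → t * x * t⁻¹ = x' → a * t * x * (a * t)⁻¹ = x' := fun x x' hx e => by
    rw [← conj_eq_of_mem_centralizer ha hx, ← e]
    group
  exact ⟨h.e8, h.cX, h.yX, h.vX, h.ind, e _ _ h.cX h.tc, e _ _ h.yX h.ty, e _ _ (mul_mem h.vX h.cX) h.tv⟩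

theorem cj (h : Tr X t c y v) (g : G) :
    Tr (X ^ᶜ g) (g * t * g⁻¹) (g * c * g⁻¹) (g * y * g⁻¹) (g * v * g⁻¹) := by
  have e : ∀ a b : G, t * a * t⁻¹ = b → g * t * g⁻¹ * (g * a * g⁻¹) * (g * t * g⁻¹)⁻¹ = g * b * g⁻¹ :=
    fun a b e => by rw [← e]; group
  have n : ∀ a b : G, a ≠ b → g * a * g⁻¹ ≠ g * b * g⁻¹ := fun a b e e' => e (by simpa using e')
  have n1 : ∀ a : G, a ≠ 1 → g * a * g⁻¹ ≠ 1 := fun a e e' => e (by simpa using e')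
  obtain ⟨i1, i2, i3, i4, i5, i6, i7⟩ := h.ind
  exact ⟨e8_cj h.e8 g, cj_mem g h.cX, cj_mem g h.yX, cj_mem g h.vX,
    ⟨n1 _ i1, n1 _ i2, n _ _ i3, n1 _ i4, n _ _ i5, n _ _ i6, cj_mul g c y ▸ n _ _ i7⟩,
    e _ _ h.tc, e _ _ h.ty, (e _ _ h.tv).trans (cj_mul _ _ _)⟩

theorem not_fix (h : Tr X t c y v) : t * v * t⁻¹ ≠ v := fun e => h.c1 (by
  have := h.tv
  rw [e] at this
  simpa using this)

theorem mv (h : Tr X t c y v) {x : G} (hx : x ∈ X) (e : t * x * t⁻¹ ≠ x) : t * x * t⁻¹ = x * c :=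
  (h.act' hx).resolve_left e

/-- another choice of the third basis vector. -/
theorem chv (h : Tr X t c y v) {v' : G} (hv : v' ∈ X) (e : t * v' * t⁻¹ ≠ v') : Tr X t c y v' :=
  ⟨h.e8, h.cX, h.yX, hv, ⟨h.c1, h.y1, h.yc, fun e' => e (by simp [e']), fun e' => e (e' ▸ h.tc),
    fun e' => e (e' ▸ h.ty), fun e' => e (e' ▸ h.tw)⟩, h.tc, h.ty, h.mv hv e⟩

theorem memW' (h : Tr X t c y v) {x : G} (hx : x ∈ X) : x ∈ zpowers c ⊔ zpowers y ↔ t * x * t⁻¹ = x :=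
  ⟨h.fixW, fun e => h.memW.2 (h.fix hx e)⟩

/-- the product of two moved elements is fixed. -/
theorem fix_mul (h : Tr X t c y v) {a b : G} (ha : a ∈ X) (hb : b ∈ X) (e1 : t * a * t⁻¹ ≠ a)
    (e2 : t * b * t⁻¹ ≠ b) : t * (a * b) * t⁻¹ = a * b := by
  rw [cj_mul, h.mv ha e1, h.mv hb e2, mul_assoc, h.cm hb h.cX, ← mul_assoc c, h.c2, one_mul]

theorem cent_of (h : Tr X t c y v) {g : G} (e1 : g * c * g⁻¹ = c) (e2 : g * y * g⁻¹ = y) (e3 : g * v * g⁻¹ = v) :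
    g ∈ 𝐂(X) := h.e8.eq_sp3 h.cX h.yX h.vX h.ind ▸ cent3 e1 e2 e3

/-- two transvections generating `S₃`. -/
theorem pair (h : Tr X t c y v) {n : G} (hn : n ∈ 𝐍(X)) (h1 : t * (n * c * n⁻¹) * t⁻¹ ≠ n * c * n⁻¹)
    (h2 : t * (n⁻¹ * c * n) * t⁻¹ ≠ n⁻¹ * c * n) :
    ∃ a, Tr X t c a (n * c * n⁻¹) ∧ Tr X (n * t * n⁻¹) (n * c * n⁻¹) a c := by
  have h' := h.cj n
  rw [cj_eq_of_mem_normalizer hn] at h'
  have h3 : n * t * n⁻¹ * c * (n * t * n⁻¹)⁻¹ ≠ c := fun e => h2 (by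
    conv_rhs => rw [← e]
    group)
  have mk : ∀ a ∈ X, t * a * t⁻¹ = a → n * t * n⁻¹ * a * (n * t * n⁻¹)⁻¹ = a → a ≠ 1 →
      ∃ a, Tr X t c a (n * c * n⁻¹) ∧ Tr X (n * t * n⁻¹) (n * c * n⁻¹) a c := fun a ha e1 e2 a1 =>
    ⟨a, (h.chg ha e1 a1 fun e => h3 (e ▸ e2)).chv h'.cX h1,
      (h'.chg ha e2 a1 fun e => h1 (e ▸ e1)).chv h.cX h3⟩
  by_cases e : n * t * n⁻¹ * y * (n * t * n⁻¹)⁻¹ = y
  · exact mk y h.yX h.ty e h.y1
  · exact mk _ h.wX h.tw (h'.fix_mul h.cX h.yX h3 e) fun e => h.yc (by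
      rw [eq_inv_of_mul_eq_one_right e, inv_of_sq h.c2])

end Tr

end H22.RG
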