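import Mathlib
import Cfsg.Agent.Base
import Cfsg.Agent.Lib.Rk3G.Tr2

/-! Groups of 2-rank 3: eight-groups with automizer `S₃`. -/

set_option autoImplicit false
set_option linter.unusedSectionVars false
set_option linter.unusedVariables false

namespace H22.RG

open Subgroup H69 H70 Cfsg H22.RK
open scoped commutatorElement Pointwise

variable {G : Type*} [Group G] [Finite G] {S Y Y' : Subgroup G} {a c w x m a' c' w' x' m' g k u r : G}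

theorem inv_zp (h : k * r * k⁻¹ = r⁻¹) (n : ℤ) : k * r ^ n * k⁻¹ = r ^ (-n) := by
  rw [← conj_zpow, h, _root_.inv_zpow']

theorem rot_cj (h : k * r * k⁻¹ = r⁻¹) (n j : ℤ) : r ^ n * (r ^ j * k) * (r ^ n)⁻¹ = r ^ (j + 2 * n) * k := by
  have := inv_zp h (-n)
  calc _ = r ^ n * r ^ j * (k * r ^ (-n) * k⁻¹) * k := by group
    _ = _ := by rw [this]; group

theorem inv_l {k k' : G} (h : k * k = 1) (h' : k' * k' = 1) : k * (k * k') * k⁻¹ = (k * k')⁻¹ := by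
  rw [← mul_assoc, h, one_mul, mul_inv_rev, inv_of_sq h']

theorem inv_r {k k' : G} (h : k * k = 1) (h' : k' * k' = 1) : k' * (k * k') * k'⁻¹ = (k * k')⁻¹ := by
  rw [mul_inv_rev, inv_of_sq h, inv_of_sq h', mul_assoc, mul_assoc, h', mul_one]

theorem exists_ord (hS : IsPGroup 2 S) (hr : r ∈ S) (h : r * r ≠ 1) :
    ∃ n : ℕ, r ^ (2 ^ n : ℤ) * r ^ (2 ^ n : ℤ) ≠ 1 ∧ r ^ (4 * 2 ^ n : ℤ) = 1 ∧ orderOf r = 2 ^ (n + 2) := by
  obtain ⟨l, hl⟩ := IsPGroup.iff_orderOf.1 hS ⟨r, hr⟩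
  rw [← Subgroup.orderOf_coe] at hl
  replace hl : orderOf r = 2 ^ l := hl
  obtain ⟨n, rfl⟩ : ∃ n, l = n + 2 := ⟨l - 2, by
    by_contra hc
    refine h (by
      rw [← pow_two, ← orderOf_dvd_iff_pow_eq_one, hl]
      rcases (by omega : l = 0 ∨ l = 1) with rfl | rfl <;> simp)⟩
  refine ⟨n, fun e => ?_, ?_, hl⟩
  · rw [← zpow_add, ← orderOf_dvd_iff_zpow_eq_one, hl] at e
    have := Int.le_of_dvd (by positivity) e
    push_cast at this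
    have : (0 : ℤ) < 2 ^ n := by positivity
    rw [pow_add] at *
    omega
  · rw [← orderOf_dvd_iff_zpow_eq_one, hl]
    exact ⟨1, by push_cast; ring⟩

/-- the central involution of a non-abelian dihedral 2-group. -/
theorem dih_e (hS : IsPGroup 2 S) {k k' : G} (hk : k ∈ S) (hk' : k' ∈ S) (h : k * k = 1) (h' : k' * k' = 1)
    (hn : k * k' ≠ k' * k) :
    ∃ e ∈ S, ∃ g ∈ S, e ≠ 1 ∧ e * e = 1 ∧ k * e * k⁻¹ = e ∧ k' * e * k'⁻¹ = e ∧ g * k * g⁻¹ = e * k ∧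
      g * k' * g⁻¹ = e * k' := by
  obtain ⟨n, h1, h2, -⟩ := exists_ord hS (mul_mem hk hk') fun e => hn (by
    rw [← inv_of_sq e, mul_inv_rev, inv_of_sq h, inv_of_sq h'])
  have e2 : (k * k') ^ (2 * 2 ^ n : ℤ) * (k * k') ^ (2 * 2 ^ n : ℤ) = 1 := by
    rw [← zpow_add, ← h2]; congr 1; ring
  have f : ∀ y : G, y * (k * k') * y⁻¹ = (k * k')⁻¹ →
      y * (k * k') ^ (2 * 2 ^ n : ℤ) * y⁻¹ = (k * k') ^ (2 * 2 ^ n : ℤ) := fun y e => by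
    rw [inv_zp e, zpow_neg, inv_of_sq e2]
  refine ⟨_, zpow_mem (mul_mem hk hk') (2 * 2 ^ n), _, zpow_mem (mul_mem hk hk') (2 ^ n),
    fun e => h1 (by rw [← zpow_add, ← e, two_mul]), e2, f _ (inv_l h h'), f _ (inv_r h h'), ?_, ?_⟩
  · simpa using rot_cj (inv_l h h') (2 ^ n) 0
  · simpa using rot_cj (inv_r h h') (2 ^ n) 0

theorem Tr.nrm {X : Subgroup G} {t y v : G} (h : Tr X t c y v) : t ∈ 𝐍(X) := nrm_of fun u hu => by
  rcases h.act' hu with e | e <;> rw [e]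
  exacts [hu, mul_mem hu h.cX]

theorem Tr.sq {X : Subgroup G} {t y v : G} (h : Tr X t c y v) {u : G} (hu : u ∈ X) :
    t * (t * u * t⁻¹) * t⁻¹ = u := by
  rcases h.act' hu with e | e
  · rw [e, e]
  · rw [e, cj_mul, e, h.tc, mul_assoc, h.c2, mul_one]

theorem E8.eq_of_le (h : E8 Y) (h' : E8 Y') (e : Y ≤ Y') : Y = Y' :=
  Subgroup.eq_of_le_of_card_ge e (by rw [h.card, h'.card])

/-- `Y = ⟨a⟩ × ⟨c, w⟩` with two transvections `x`, `m` generating `S₃`. -/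
structure Gd (S Y : Subgroup G) (a c w x m : G) : Prop where
  rk : PRankLE 2 3 G
  isP : IsPGroup 2 S
  le : Y ≤ S
  xS : x ∈ S
  tr : Tr Y x c a w
  tr' : Tr Y m w a c
  mN : m ∈ 𝐍(S ⊓ 𝐂(Y))
  two : ∀ g ∈ S, g ∈ 𝐍(Y) → g ∈ 𝐂(Y) ∨ g * x ∈ 𝐂(Y)

/-- `a` is the only involution that can be a square in `C_S(Y)`. -/
def NS (S Y : Subgroup G) (a : G) : Prop := ∀ u ∈ S, u ∈ 𝐂(Y) → u * u ∈ Y → u * u = 1 ∨ u * u = a

namespace Gd

variable (h : Gd S Y a c w x m)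
include h

theorem e8 : E8 Y := h.tr.e8

theorem memY {d : G} (hd : d * d = 1) (hc : d ∈ 𝐂(Y)) : d ∈ Y := h.e8.mem_of_cent h.rk hd hc

theorem cj (hg : g ∈ 𝐍(S)) :
    Gd S (Y ^ᶜ g) (g * a * g⁻¹) (g * c * g⁻¹) (g * w * g⁻¹) (g * x * g⁻¹) (g * m * g⁻¹) := by
  refine ⟨h.rk, h.isP, cj_le_of_mem_normalizer h.le hg, conj_mem_of_mem_normalizer hg h.xS, h.tr.cj g,
    h.tr'.cj g, ?_, fun s hs hn => ?_⟩
  · have := cj_mem g h.mN
    rwa [cj_normalizer, cj_inf, cj_centralizer, cj_eq_of_mem_normalizer hg] at this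
  · rw [← cj_normalizer] at hn
    rw [← cj_centralizer, mem_cj, mem_cj, show g⁻¹ * (s * (g * x * g⁻¹)) * g = g⁻¹ * s * g * x by group]
    exact h.two _ (conj_mem_of_mem_normalizer' hg hs) (mem_cj.1 hn)

theorem cjS (hg : g ∈ S) :
    Gd S (Y ^ᶜ g) (g * a * g⁻¹) (g * c * g⁻¹) (g * w * g⁻¹) (g * x * g⁻¹) (g * m * g⁻¹) :=
  h.cj (le_normalizer hg)

theorem act (hg : g ∈ S) (hn : g ∈ 𝐍(Y)) : g ∈ 𝐂(Y) ∨ ∀ k ∈ Y, g * k * g⁻¹ = x * k * x⁻¹ :=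
  (h.two g hg hn).imp id fun e k hk => by
    rw [← conj_eq_of_mem_centralizer e (conj_mem_of_mem_normalizer h.tr.nrm hk)]
    conv_lhs => rw [← h.tr.sq hk]
    group

theorem fix (hg : g ∈ S) (hn : g ∈ 𝐍(Y)) (hk : k ∈ Y) (e : x * k * x⁻¹ = k) : g * k * g⁻¹ = k :=
  (h.act hg hn).elim (conj_eq_of_mem_centralizer · hk) fun e' => (e' k hk).trans e

theorem act' (hg : g ∈ S) (hn : g ∈ 𝐍(Y)) (hk : k ∈ Y) : g * k * g⁻¹ = k ∨ g * k * g⁻¹ = k * c :=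
  (h.act hg hn).elim (.inl <| conj_eq_of_mem_centralizer · hk) fun e' => e' k hk ▸ h.tr.act' hk

theorem sq (hg : g ∈ S) (hn : g ∈ 𝐍(Y)) : g * g ∈ 𝐂(Y) :=
  (h.act hg hn).elim (fun e => mul_mem e e) fun e => mem_centralizer_iff_commute.2 fun k hk =>
    (comm_of_cj (by
      rw [show g * g * k * (g * g)⁻¹ = g * (g * k * g⁻¹) * g⁻¹ by group, e k hk,
        e _ (conj_mem_of_mem_normalizer h.tr.nrm hk), h.tr.sq hk])).symm

theorem mul_cent (hg : g ∈ S) (hn : g ∈ 𝐍(Y)) (hc : g ∉ 𝐂(Y)) {g' : G} (hg' : g' ∈ S) (hn' : g' ∈ 𝐍(Y))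
    (hc' : g' ∉ 𝐂(Y)) : g * g' ∈ 𝐂(Y) :=
  mem_centralizer_iff_commute.2 fun k hk => (comm_of_cj (by
    rw [show g * g' * k * (g * g')⁻¹ = g * (g' * k * g'⁻¹) * g⁻¹ by group, (h.act hg' hn').resolve_left hc' k hk,
      (h.act hg hn).resolve_left hc _ (conj_mem_of_mem_normalizer h.tr.nrm hk), h.tr.sq hk])).symm

theorem nrmY (hg : g ∈ 𝐍(S ⊓ 𝐂(Y))) : g ∈ 𝐍(Y) := nrm_of fun k hk =>
  h.memY (sq_cj g (h.e8.sq k hk)) (conj_mem_of_mem_normalizer hg ⟨h.le hk, E8.le_cent h.e8 hk⟩).2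

theorem cent (hk : k ∈ Y) (e : x * k * x⁻¹ ≠ k) (hg : g ∈ S) (e' : g * k * g⁻¹ = k) : g ∈ 𝐂(Y) := by
  by_contra hc
  have hlt : S ⊓ 𝐂(Y) < S ⊓ centralizer {k} :=
    lt_of_le_of_ne (fun y hy => ⟨hy.1, mcs.2 (conj_eq_of_mem_centralizer hy.2 hk)⟩) fun e =>
      hc (e.symm ▸ (⟨hg, mcs.2 e'⟩ : g ∈ S ⊓ centralizer {k}) : g ∈ S ⊓ 𝐂(Y)).2
  obtain ⟨y, hy, hy'⟩ := SetLike.exists_of_lt (lt_inf_normalizer_of_lt h.isP.to_inf_left hlt)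
  rcases h.act hy.1.1 (h.nrmY hy.2) with e1 | e1
  · exact hy' ⟨hy.1.1, e1⟩
  · exact e ((e1 k hk).symm.trans (mcs.1 hy.1.2))

theorem inv (hk : k ∈ Y) (e : x * k * x⁻¹ ≠ k) {d : G} (hd : d ∈ S) (d2 : d * d = 1) (e' : d * k * d⁻¹ = k) :
    d ∈ Y := h.memY d2 (h.cent hk e hd e')

theorem nrm (hk : k ∈ Y) (e : x * k * x⁻¹ ≠ k) (hg : g ∈ S) (e' : g * k * g⁻¹ ∈ Y) : g ∈ 𝐍(Y) :=
  (inv_mem_iff (x := g)).1 (nrm_of fun y hy => h.inv hk e (mul_mem (mul_mem (inv_mem hg) (h.le hy)) (inv_mem (inv_mem hg)))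
    (sq_cj _ (h.e8.sq y hy)) (by
      calc _ = g⁻¹ * (y * (g * k * g⁻¹) * y⁻¹) * g := by group
        _ = k := by rw [E8.cj h.e8 hy e']; group))

/-- an eight-group of `S` through a moved element is `Y`. -/
theorem eq_of_mem (hk : k ∈ Y) (e : x * k * x⁻¹ ≠ k) (h' : E8 Y') (hle : Y' ≤ S) (hc : k ∈ 𝐂(Y')) : Y' = Y :=
  E8.eq_of_le h' h.e8 fun y hy => h.inv hk e (hle hy) (h'.sq y hy) (cj_symm (conj_eq_of_mem_centralizer hc hy))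

theorem ns (h' : Gd S Y' a' c' w' x' m') (hne : Y' ≠ Y) (hn : S ⊓ 𝐂(Y) ≤ 𝐍(Y')) : NS S Y a := by
  have out : ∀ u ∈ S ⊓ 𝐂(Y), u * u ∈ Y → x * (u * u) * x⁻¹ = u * u := fun u hu hY => by
    by_contra e
    exact hne (h.eq_of_mem hY e h'.e8 h'.le (h'.sq hu.1 (hn hu)))
  intro u hu hc hY
  have := out _ (conj_mem_of_mem_normalizer h.mN ⟨hu, hc⟩)
  rw [← cj_mul] at this
  replace this := this (conj_mem_of_mem_normalizer h.tr'.nrm hY)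
  rcases h.tr.fix hY (out u ⟨hu, hc⟩ hY) with e | e | e | e
  · exact .inl e
  · rw [e, h.tr'.tv, cj_mul, h.tr.tc] at this
    exact absurd (mul_left_cancel this) h.tr.not_fix
  · exact .inr e
  · rw [e, cj_mul m, h.tr'.tv, h.tr'.ty, cj_mul, cj_mul, h.tr.tc, h.tr.ty] at this
    exact absurd (mul_left_cancel (mul_right_cancel this)) h.tr.not_fix

theorem not_comm (h' : Gd S Y' a' c' w' x' m') (hne : Y' ≠ Y) : w * w' ≠ w' * w := fun e =>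
  hne (h'.eq_of_mem h'.tr.vX h'.tr.not_fix h.e8 h.le (E8.le_cent h.e8
    (h.inv h.tr.vX h.tr.not_fix (h'.le h'.tr.vX) h'.tr.v2 (cj_of_comm e.symm)))).symm

theorem eq_c {e : G} (he : e ∈ S) (e1 : e ≠ 1) (e2 : e * e = 1) (h1 : w * e * w⁻¹ = e) (hg : g ∈ S)
    (h2 : g * w * g⁻¹ = e * w) : e = c := by
  have eY := h.inv h.tr.vX h.tr.not_fix he e2 (cj_symm h1)
  rcases h.act' hg (h.nrm h.tr.vX h.tr.not_fix hg (h2 ▸ mul_mem eY h.tr.vX)) h.tr.vX with e' | e' <;> rw [h2] at e'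
  · exact absurd (by simpa using e') e1
  · rw [h.tr.cm eY h.tr.vX] at e'
    exact mul_left_cancel e'

theorem same_c (h' : Gd S Y' a' c' w' x' m') (hne : Y' ≠ Y) : c' = c := by
  obtain ⟨e, he, g, hg, e1, e2, h1, h2, h3, h4⟩ := dih_e h.isP (h.le h.tr.vX) (h'.le h'.tr.vX) h.tr.v2 h'.tr.v2
    (h.not_comm h' hne)
  rw [← h.eq_c he e1 e2 h1 hg h3, ← h'.eq_c he e1 e2 h2 hg h4]

theorem c_cen (hg : g ∈ S) : g * c * g⁻¹ = c := by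
  by_cases e : Y ^ᶜ g = Y
  · exact h.fix hg (cj_eq_self_iff.1 e) h.tr.cX h.tr.tc
  · exact h.same_c (h.cjS hg) e

theorem conj_w : IsConj w c := by
  refine (isConj_iff.2 ⟨x, h.tr.tv⟩).trans (isConj_iff.2 ⟨m, ?_⟩ : IsConj c _).symm
  rw [h.tr'.tv, h.tr.cm h.tr.cX h.tr.vX]

theorem exists_y (hn : ¬ S ≤ 𝐍(Y)) :
    ∃ y ∈ S, Y ^ᶜ y ≠ Y ∧ S ⊓ 𝐍(Y ^ᶜ y) = S ⊓ 𝐍(Y) := by
  obtain ⟨y, hy, hy'⟩ := SetLike.exists_of_lt (lt_inf_normalizer_of_lt h.isP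
    (lt_of_le_of_ne inf_le_left fun e => hn (inf_eq_left.1 e)))
  refine ⟨y, hy.1, fun e => hy' ⟨hy.1, cj_eq_self_iff.1 e⟩, ?_⟩
  rw [← cj_normalizer, ← cj_eq_of_mem_normalizer hy.2, cj_inf, cj_eq_of_mem hy.1]

theorem ns_of_not (hn : ¬ S ≤ 𝐍(Y)) : NS S Y a := by
  obtain ⟨y, hy, e1, e2⟩ := h.exists_y hn
  exact h.ns (h.cjS hy) e1 fun u hu =>
    (e2.symm ▸ (⟨hu.1, centralizer_le_normalizer _ hu.2⟩ : u ∈ S ⊓ 𝐍(Y)) : u ∈ S ⊓ 𝐍(Y ^ᶜ y)).2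

theorem not_sq_c (hs : NS S Y a) (hu : u ∈ S) (hc : u ∈ 𝐂(Y)) : u * u ≠ c := fun e =>
  (hs u hu hc (e ▸ h.tr.cX)).elim (fun e' => h.tr.c1 (e.symm.trans e')) fun e' => h.tr.yc (e'.symm.trans e)

/-- the four-group `⟨c, a⟩` is normal when `c` lies in a normal four-group. -/
theorem a_cj (hn : ¬ S ≤ 𝐍(Y)) (hu : u ∈ S) (u2 : u * u = 1) (u1 : u ≠ 1) (uc : u ≠ c)
    (hU : ∀ s ∈ S, s * u * s⁻¹ = u ∨ s * u * s⁻¹ = u * c) (hg : g ∈ S) :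
    g * a * g⁻¹ = a ∨ g * a * g⁻¹ = a * c := by
  obtain ⟨y, hy, e1, e2⟩ := h.exists_y hn
  have h' := h.cjS hy
  have sN : ∀ s, s ∈ S ⊓ 𝐍(Y ^ᶜ y) ↔ s ∈ S ⊓ 𝐍(Y) := fun s => by rw [e2]
  have wS := h.le h.tr.vX
  have cw := h.tr.cm h.tr.cX h.tr.vX
  have key : ∀ s ∈ S, s * u * s⁻¹ ∈ Y ↔ w * u * w⁻¹ = u := fun s hs => by
    have : w * (u * c) * w⁻¹ = u * c ↔ w * u * w⁻¹ = u := by rw [cj_mul, h.c_cen wS, mul_left_inj]
    refine ⟨fun e => ?_, fun e => h.inv h.tr.vX h.tr.not_fix (mul_mem (mul_mem hs hu) (inv_mem hs)) (sq_cj _ u2)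
      (cj_symm ?_)⟩
    · have := E8.cj h.e8 h.tr.vX e
      rcases hU s hs with e' | e' <;> simp_all
    · rcases hU s hs with e' | e' <;> simp_all
  have hw : w * u * w⁻¹ = u := by
    by_contra e
    have e3 : u * w * u⁻¹ = w * c := by
      have := (hU w wS).resolve_left e
      calc _ = w * (w * u * w⁻¹) * u⁻¹ := by rw [inv_of_sq h.tr.v2, ← mul_assoc, ← mul_assoc, h.tr.v2, one_mul]
        _ = w * (u * c * u⁻¹) := by rw [this]; group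
        _ = _ := by rw [h.c_cen hu]
    have uN := h.nrm h.tr.vX h.tr.not_fix hu (e3 ▸ mul_mem h.tr.vX h.tr.cX)
    have sS := h'.le h'.tr.vX
    have us := h.mul_cent hu uN (fun e' => e (cj_symm (conj_eq_of_mem_centralizer e' h.tr.vX))) sS
      ((sN _).1 ⟨sS, le_normalizer h'.tr.vX⟩).2 fun e' => e1 (h'.eq_of_mem h'.tr.vX h'.tr.not_fix h.e8 h.le e').symm
    rcases h'.act' hu ((sN _).2 ⟨hu, uN⟩).2 h'.tr.vX with e' | e'
    · have := mem_cj.1 (h'.inv h'.tr.vX h'.tr.not_fix hu u2 e')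
      exact e ((key y⁻¹ (inv_mem hy)).1 (by rwa [inv_inv]))
    · refine h.not_sq_c (h.ns_of_not hn) (mul_mem hu sS) us ?_
      rw [h.c_cen hy] at e'
      have v2 := h'.tr.v2
      have cs := comm_of_cj (h.c_cen sS)
      generalize y * w * y⁻¹ = s at *
      calc _ = u * s * u⁻¹ * s := by rw [inv_of_sq u2, mul_assoc (u * s)]
        _ = c := by rw [e', cs, mul_assoc, v2, mul_one]
  have uY : u ∈ Y := by simpa using (key 1 (one_mem _)).2 hw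
  have uY' : u ∈ Y ^ᶜ y := mem_cj.2 (by simpa using (key y⁻¹ (inv_mem hy)).2 hw)
  have fx : x * u * x⁻¹ = u := by
    by_contra e
    exact e1 (h.eq_of_mem uY e h'.e8 h'.le (E8.le_cent h'.e8 uY'))
  have ca := h.tr.cm h.tr.cX h.tr.yX
  rcases h.tr.fix uY fx with e | e | e | e
  · exact absurd e u1
  · exact absurd e uc
  · exact e ▸ hU g hg
  · have := hU g hg
    rw [e, cj_mul, h.c_cen hg, mul_assoc c a c, mul_right_inj, mul_right_inj] at this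
    exact this

end Gd

end H22.RG
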