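import Mathlib
import Cfsg.Agent.Base
import Cfsg.Agent.Lib.Rk3G.Good

/-! Groups of 2-rank 3: a class of involutions generating a dihedral group. -/

set_option autoImplicit false
set_option linter.unusedSectionVars false
set_option linter.unusedVariables false

namespace H22.RG

open Subgroup H69 H70 Cfsg H22.RK
open scoped commutatorElement Pointwise

variable {G : Type*} [Group G] [Finite G] {S : Subgroup G} {K : Set G} {a b c α g k u r : G} {n : ℕ}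

/-- the dihedral group with rotation `r` and reflection `a`. -/
def dg (r a : G) : Subgroup G := zpowers r ⊔ zpowers a

/-- dihedral data. -/
structure Pr (c a r : G) (n : ℕ) : Prop where
  a2 : a * a = 1
  inv : a * r * a⁻¹ = r⁻¹
  ord : orderOf r = 2 ^ (n + 2)
  half : r ^ (2 * 2 ^ n : ℤ) = c

namespace Pr

variable (h : Pr c a r n)
include h

theorem eq_one {j : ℤ} : r ^ j = 1 ↔ 4 * 2 ^ n ∣ j := by
  rw [← orderOf_dvd_iff_zpow_eq_one, h.ord]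
  push_cast
  rw [pow_add, mul_comm]
  rfl

theorem c2 : c * c = 1 := by rw [← h.half, ← zpow_add, h.eq_one]; exact ⟨1, by ring⟩

theorem c1 : c ≠ 1 := fun e => by
  rw [← h.half, h.eq_one] at e
  have := Int.le_of_dvd (by positivity) e
  have : (0 : ℤ) < 2 ^ n := by positivity
  omega

theorem invol {j : ℤ} (e : r ^ j * r ^ j = 1) : r ^ j = 1 ∨ r ^ j = c := by
  rw [← zpow_add, h.eq_one] at e
  obtain ⟨q, hq⟩ := e
  rw [show j = 2 * 2 ^ n * q by linarith, zpow_mul, h.half]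
  exact (mem_zpowers_two h.c2).1 (zpow_mem (mem_zpowers c) q)

theorem r2 : r * r ≠ 1 := fun e => by
  rw [← zpow_two, h.eq_one] at e
  have := Int.le_of_dvd (by positivity) e
  have : (0 : ℤ) < 2 ^ n := by positivity
  omega

theorem mem {x : G} : x ∈ dg r a ↔ ∃ j : ℤ, x = r ^ j ∨ x = r ^ j * a := by
  constructor
  · intro hx
    obtain ⟨_, ⟨j, rfl⟩, y, hy, rfl⟩ := (mem_sup_of_le_normalizer_left (zpowers_le.2 (nrm_of (by
      rintro _ ⟨j, rfl⟩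
      exact ⟨-j, (inv_zp h.inv j).symm⟩)))).1 hx
    exact ⟨j, ((mem_zpowers_two h.a2).1 hy).imp (fun e => by simp [e]) fun e => by rw [e]⟩
  · rintro ⟨j, rfl | rfl⟩
    exacts [zpow_mem (m2l r a) j, mul_mem (zpow_mem (m2l r a) j) (m2r r a)]

theorem cD : c ∈ dg r a := h.mem.2 ⟨_, .inl h.half.symm⟩

theorem refl_sq (j : ℤ) : r ^ j * a * (r ^ j * a) = 1 := by
  calc _ = r ^ j * (a * r ^ j * a⁻¹) * (a * a) := by group
    _ = 1 := by rw [inv_zp h.inv, h.a2]; group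

theorem cent {j : ℤ} (e : r ^ j * a * (r ^ j)⁻¹ = a) : r ^ j = 1 ∨ r ^ j = c := h.invol (by
  have := rot_cj h.inv j 0
  rw [zpow_zero, one_mul, e, zero_add, two_mul, zpow_add] at this
  simpa using this.symm)

theorem not_comm : r * a * r⁻¹ ≠ a := fun e => h.r2 (by
  have := cj_symm e
  rw [h.inv] at this
  rw [← mul_inv_cancel r, this])

theorem nrm_r (hg : g ∈ 𝐍(dg r a)) : ∃ i : ℤ, g * r * g⁻¹ = r ^ i := by
  obtain ⟨j, e | e⟩ := h.mem.1 (conj_mem_of_mem_normalizer hg (m2l r a))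
  · exact ⟨j, e⟩
  · have := h.refl_sq j
    rw [← e, ← cj_mul] at this
    exact absurd (by simpa using this) h.r2

theorem even_of {j : ℤ} (e : (r ^ j) ^ (2 * 2 ^ n : ℤ) = 1) : Even j := by
  rw [← zpow_mul, h.eq_one] at e
  obtain ⟨q, hq⟩ := e
  exact ⟨q, mul_left_cancel₀ (by positivity : (2 * 2 ^ n : ℤ) ≠ 0) (by linarith)⟩

theorem odd_of {i : ℤ} (e : g * r * g⁻¹ = r ^ i) : Odd i := by
  rw [← Int.not_even_iff_odd]
  rintro ⟨q, rfl⟩
  have : g * c * g⁻¹ = 1 := by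
    rw [← h.half, ← conj_zpow, e, ← zpow_mul, h.eq_one]
    exact ⟨q, by ring⟩
  exact h.c1 (by simpa using this)

/-- a reflection is conjugate to `a` or to `r⁻¹ a`. -/
theorem refl_cj (j : ℤ) :
    ∃ i : ℤ, r ^ j * a = r ^ i * a * (r ^ i)⁻¹ ∨ r ^ j * a = r ^ i * (r⁻¹ * a) * (r ^ i)⁻¹ := by
  rcases Int.even_or_odd' j with ⟨i, rfl | rfl⟩
  · exact ⟨i, .inl (by simpa using (rot_cj h.inv i 0).symm)⟩
  · refine ⟨i + 1, .inr ?_⟩
    rw [← zpow_neg_one, rot_cj h.inv]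
    congr 2
    ring

end Pr

/-- a normal set of involutions with small centralisers. -/
structure DK (S : Subgroup G) (c α : G) (K : Set G) : Prop where
  isP : IsPGroup 2 S
  α1 : α ≠ 1
  αc : α ≠ c
  α2 : α * α = 1
  mem : ∀ k ∈ K, k ∈ S
  sq : ∀ k ∈ K, k * k = 1
  fα : ∀ k ∈ K, k * α * k⁻¹ = α
  cj : ∀ k ∈ K, ∀ s ∈ S, s * k * s⁻¹ ∈ K
  inv : ∀ k ∈ K, ∀ d ∈ S, d * d = 1 → d * k * d⁻¹ = k →
    ∃ u, (u = 1 ∨ u = c ∨ u = k ∨ u = k * c) ∧ (d = u ∨ d = u * α)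
  kk : ∀ k ∈ K, ∀ k' ∈ K, k' * k * k'⁻¹ = k → k' = k ∨ k' = k * c
  ns : ∀ k ∈ K, ∀ u ∈ S, u * k * u⁻¹ = k → u * u ≠ c ∧ u * u ≠ k ∧ u * u ≠ k * c
  cc : ∀ s ∈ S, s * c * s⁻¹ = c
  nc : ∃ k ∈ K, ∃ k' ∈ K, k * k' ≠ k' * k

/-- the resulting normal dihedral group. -/
structure DD (S : Subgroup G) (c α : G) (K : Set G) (a r : G) (n : ℕ) : Prop where
  dk : DK S c α K
  pr : Pr c a r n
  aK : a ∈ K
  bK : r⁻¹ * a ∈ K
  nrm : S ≤ 𝐍(dg r a)
  sub : ∀ k ∈ K, k ∈ dg r a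

namespace DK

variable (h : DK S c α K) (p : Pr c a r n) (aK : a ∈ K) (bK : r⁻¹ * a ∈ K)
include h p aK bK

theorem rS : r ∈ S := by simpa using inv_mem (mul_mem (h.mem _ bK) (inv_mem (h.mem _ aK)))

theorem le : dg r a ≤ S := sup_le (zpowers_le.2 (h.rS p aK bK)) (zpowers_le.2 (h.mem _ aK))

theorem reflK (j : ℤ) : r ^ j * a ∈ K := by
  obtain ⟨i, e | e⟩ := p.refl_cj j <;> rw [e]
  exacts [h.cj _ aK _ (zpow_mem (h.rS p aK bK) i), h.cj _ bK _ (zpow_mem (h.rS p aK bK) i)]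

theorem αr : r * α * r⁻¹ = α := by
  have := h.fα _ bK
  rw [show r⁻¹ * a * α * (r⁻¹ * a)⁻¹ = r⁻¹ * (a * α * a⁻¹) * r by group, h.fα _ aK] at this
  conv_lhs => rw [← this]
  group

theorem αD {d : G} (hd : d ∈ dg r a) : d * α * d⁻¹ = α :=
  mcs.1 (sup_le (zpowers_le.2 (mcs.2 (h.αr p aK bK))) (zpowers_le.2 (mcs.2 (h.fα _ aK))) hd)

/-- no member of `K` commutes with `a` and `r`. -/
theorem not_cent (hk : k ∈ K) (e1 : k * a * k⁻¹ = a) (e2 : r * k * r⁻¹ = k) : False := by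
  rcases h.kk _ aK _ hk e1 with rfl | rfl
  · exact p.not_comm e2
  · rw [cj_mul, h.cc _ (h.rS p aK bK)] at e2
    exact p.not_comm (mul_right_cancel e2)

theorem refl_of (hk : k ∈ K) (hD : k ∈ dg r a) : ∃ j : ℤ, k = r ^ j * a := by
  obtain ⟨j, e | e⟩ := p.mem.1 hD
  · refine (h.not_cent p aK bK hk (cj_symm ?_) (by rw [e]; group)).elim
    have := h.sq k hk
    rw [e] at this ⊢
    rw [inv_zp p.inv, zpow_neg, inv_of_sq this]
  · exact ⟨j, e⟩

theorem α_not : α ∉ dg r a := fun hD => by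
  obtain ⟨j, e | e⟩ := p.mem.1 hD
  · exact (p.invol (e ▸ h.α2)).elim (fun e' => h.α1 (e.trans e')) fun e' => h.αc (e.trans e')
  · exact h.not_cent p aK bK (e ▸ h.reflK p aK bK j) (cj_symm (h.fα _ aK)) (h.αr p aK bK)

theorem mem_of_nrm (hmax : ∀ k ∈ K, (k * a) ^ (4 * 2 ^ n : ℤ) = 1) (hk : k ∈ K) (hn : k ∈ 𝐍(dg r a)) :
    k ∈ dg r a := by
  by_contra hD
  have aD : a ∈ dg r a := m2r r a
  have rD : r ∈ dg r a := m2l r a
  have hle := h.le p aK bK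
  obtain ⟨j, e⟩ := h.refl_of p aK bK (h.cj _ aK _ (h.mem _ hk)) (conj_mem_of_mem_normalizer hn aD)
  have k2 := h.sq k hk
  obtain ⟨i, rfl⟩ : Even j := p.even_of (by
    rw [← hmax k hk, show (4 * 2 ^ n : ℤ) = 2 * (2 * 2 ^ n) by ring, zpow_mul (k * a), zpow_two]
    congr 1
    rw [eq_mul_inv_of_mul_eq e.symm, inv_of_sq k2, inv_of_sq p.a2, mul_assoc (k * a)])
  obtain ⟨g, hg⟩ : ∃ g, g = (r ^ i)⁻¹ * k := ⟨_, rfl⟩
  have gS : g ∈ S := hg ▸ mul_mem (inv_mem (zpow_mem (hle rD) i)) (h.mem _ hk)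
  have ga : g * a * g⁻¹ = a := by
    have := rot_cj p.inv i 0
    rw [zero_add, two_mul, ← e] at this
    calc _ = (r ^ i)⁻¹ * (k * a * k⁻¹) * r ^ i := by rw [hg]; group
      _ = a := by rw [← this]; group
  have gD : g * g ∈ dg r a := by
    have := mul_mem (inv_mem (zpow_mem rD i)) (conj_mem_of_mem_normalizer hn (inv_mem (zpow_mem rD i)))
    rwa [inv_of_sq k2, ← mul_assoc, ← mul_assoc, ← hg, mul_assoc g, ← hg] at this
  have gga : g * g * a * (g * g)⁻¹ = a := by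
    rw [show g * g * a * (g * g)⁻¹ = g * (g * a * g⁻¹) * g⁻¹ by group, ga, ga]
  obtain ⟨n1, n2, n3⟩ := h.ns _ aK g gS ga
  have g2 : g * g = 1 := by
    obtain ⟨l, e' | e'⟩ := p.mem.1 gD
    · rw [e'] at gga n1 ⊢
      exact (p.cent gga).resolve_right n1
    · exact ((h.kk _ aK _ (e' ▸ h.reflK p aK bK l) gga).elim n2 n3).elim
  obtain ⟨u, hu, e'⟩ := h.inv _ aK g gS g2 ga
  have uD : r ^ i * u ∈ dg r a := mul_mem (zpow_mem rD i) (by
    rcases hu with rfl | rfl | rfl | rfl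
    exacts [one_mem _, p.cD, aD, mul_mem aD p.cD])
  have ek : k = r ^ i * g := by rw [hg]; group
  rcases e' with rfl | rfl
  · exact hD (ek ▸ uD)
  rw [← mul_assoc] at ek
  generalize r ^ i * u = d at uD ek
  have dα := h.αD p aK bK uD
  have dk : d * k * d⁻¹ = k := by rw [ek, cj_mul, dα]; group
  obtain ⟨l, rfl | rfl⟩ := p.mem.1 uD
  · have : r ^ l * r ^ l = 1 := by
      rw [← k2, ek, mul_assoc, ← mul_assoc α, ← comm_of_cj dα, mul_assoc, h.α2, mul_one]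
    refine h.not_cent p aK bK hk (cj_symm ?_) (by rw [ek, cj_mul, h.αr p aK bK]; group)
    rw [ek, cj_mul, h.fα _ aK, inv_zp p.inv, zpow_neg, inv_of_sq this]
  · rcases h.kk _ (h.reflK p aK bK l) _ hk (cj_symm dk) with e | e
    exacts [hD (e ▸ uD), hD (e ▸ mul_mem uD p.cD)]

end DK

theorem DK.exists_dd (h : DK S c α K) : ∃ a r n, DD S c α K a r n := by
  obtain ⟨k0, hk0, k0', hk0', hn0⟩ := h.nc
  obtain ⟨⟨a, b⟩, ⟨aK, bK⟩, hmax⟩ := (Set.toFinite (K ×ˢ K)).exists_maximalFor (fun p : G × G => orderOf (p.1 * p.2)) _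
    ⟨(k0, k0'), hk0, hk0'⟩
  simp only at aK bK hmax
  have mx : ∀ k ∈ K, ∀ k' ∈ K, (k * k') ^ orderOf (a * b) = 1 := fun k hk k' hk' => by
    obtain ⟨l, hl⟩ := IsPGroup.iff_orderOf.1 h.isP ⟨_, mul_mem (h.mem _ hk) (h.mem _ hk')⟩
    obtain ⟨l', hl'⟩ := IsPGroup.iff_orderOf.1 h.isP ⟨_, mul_mem (h.mem _ aK) (h.mem _ bK)⟩
    rw [← Subgroup.orderOf_coe] at hl hl'
    replace hl : orderOf (k * k') = 2 ^ l := hl
    replace hl' : orderOf (a * b) = 2 ^ l' := hl'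
    have : orderOf (k * k') ≤ orderOf (a * b) := le_of_not_gt fun e => by
      have := hmax (j := (k, k')) ⟨hk, hk'⟩ e.le
      exact absurd e (not_lt.2 this)
    rw [← orderOf_dvd_iff_pow_eq_one, hl, hl'] at *
    exact Nat.pow_dvd_pow 2 ((Nat.pow_le_pow_iff_right (by norm_num)).1 this)
  obtain ⟨n, h1, h2, h3⟩ := exists_ord h.isP (mul_mem (h.mem _ aK) (h.mem _ bK)) fun e => hn0 (by
    have h4 := mx _ hk0 _ hk0'
    have h5 : orderOf (a * b) ∣ 2 := orderOf_dvd_of_pow_eq_one (by rwa [pow_two])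
    have h6 : k0 * k0' * (k0 * k0') = 1 := by
      rw [← pow_two, ← orderOf_dvd_iff_pow_eq_one]
      exact (orderOf_dvd_of_pow_eq_one h4).trans h5
    rw [← inv_of_sq h6, mul_inv_rev, inv_of_sq (h.sq _ hk0), inv_of_sq (h.sq _ hk0')])
  have iv := inv_l (h.sq _ aK) (h.sq _ bK)
  have rS := mul_mem (h.mem _ aK) (h.mem _ bK)
  have p0 : Pr ((a * b) ^ (2 * 2 ^ n : ℤ)) a (a * b) n := ⟨h.sq _ aK, iv, h3, rfl⟩
  have ec : (a * b) ^ (2 * 2 ^ n : ℤ) = c := by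
    have e := rot_cj iv (2 ^ n) 0
    rw [zpow_zero, one_mul, zero_add] at e
    have f : a * (a * b) ^ (2 * 2 ^ n : ℤ) * a⁻¹ = (a * b) ^ (2 * 2 ^ n : ℤ) := by
      rw [inv_zp iv, zpow_neg, inv_of_sq p0.c2]
    rcases h.kk _ aK _ (e ▸ h.cj _ aK _ (zpow_mem rS (2 ^ n))) (cj_symm (by rw [cj_mul, f]; group)) with e' | e'
    · exact absurd (by simpa using e') p0.c1
    · rw [← comm_of_cj f] at e'
      exact mul_left_cancel e'
  have p : Pr c a (a * b) n := ec ▸ p0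
  have bK' : (a * b)⁻¹ * a ∈ K := by simpa [inv_of_sq (h.sq _ bK)] using bK
  have key := fun k => h.mem_of_nrm p aK bK' (k := k) fun k hk => by
    have := mx k hk a aK
    rw [h3, ← zpow_natCast] at this
    rw [← this]
    congr 1
    push_cast
    ring
  have hle := h.le p aK bK'
  have nrm : S ≤ 𝐍(dg (a * b) a) := by
    by_contra hn
    obtain ⟨y, hy, hy'⟩ := SetLike.exists_of_lt (lt_inf_normalizer_of_lt h.isP
      (lt_of_le_of_ne inf_le_left fun e => hn (inf_eq_left.1 e)))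
    have m : ∀ k ∈ K, k ∈ dg (a * b) a → y * k * y⁻¹ ∈ dg (a * b) a := fun k hk hD =>
      key _ (h.cj k hk y hy.1) (conj_mem_of_mem_normalizer hy.2 ⟨h.mem k hk, le_normalizer hD⟩).2
    have m1 := m a aK (m2r _ _)
    have m2 := m _ bK' (mul_mem (inv_mem (m2l _ _)) (m2r _ _))
    refine hy' ⟨hy.1, nrm2 ?_ m1⟩
    have := mul_mem m1 (inv_mem m2)
    rwa [show y * a * y⁻¹ * (y * ((a * b)⁻¹ * a) * y⁻¹)⁻¹ = y * (a * b) * y⁻¹ by group] at this
  exact ⟨a, a * b, n, h, p, aK, bK', nrm, fun k hk => key k hk (nrm (h.mem k hk))⟩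

end H22.RG
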