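import Mathlib
import Cfsg.Agent.Base
import Cfsg.Agent.Lib.Rk3G.Dih
import Cfsg.Agent.Lib.FGS.TwoOrbits
import Cfsg.Agent.Lib.NE8.Conn

/-! Groups of 2-rank 3: transfer modulo the normal dihedral group. -/

set_option autoImplicit false
set_option linter.unusedSectionVars false
set_option linter.unusedVariables false

namespace H22.RG

open Subgroup H69 H70 Cfsg H22.RK
open scoped commutatorElement Pointwise

variable {G : Type*} [Group G] [Finite G] {S : Subgroup G} {K : Set G} {a b c α g k u r t s f : G} {n : ℕ}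

/-- a 2-group acting on a cyclic group with central kernel and at most one involution is abelian. -/
theorem comm_of_act {T : Subgroup G} (hT : IsPGroup 2 T) (hn : T ≤ 𝐍(zpowers r))
    (h1 : ∀ t ∈ T, t * r * t⁻¹ = r → ∀ s ∈ T, s * t = t * s)
    (h2 : ∀ t ∈ T, t * t * r * (t * t)⁻¹ = r → t * r * t⁻¹ = r ∨ t * r * t⁻¹ = r * c) :
    ∀ x ∈ T, ∀ y ∈ T, x * y = y * x := by
  let f : T →* (ZMod (Nat.card (zpowers r)))ˣ := (IsCyclic.mulAutMulEquiv (zpowers r)).toMonoidHom.comp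
    ((zpowers r).normalizerMonoidHom.comp (inclusion hn))
  have hf : ∀ x y : T, f x = f y ↔ (x : G) * r * (x : G)⁻¹ = y * r * (y : G)⁻¹ := fun x y => by
    refine (IsCyclic.mulAutMulEquiv (zpowers r)).injective.eq_iff.trans ⟨fun e => ?_, fun e => ?_⟩
    · exact congrArg (fun φ : MulAut (zpowers r) => (φ ⟨r, mem_zpowers r⟩ : G)) e
    · ext ⟨_, j, rfl⟩
      show (x : G) * r ^ j * (x : G)⁻¹ = y * r ^ j * (y : G)⁻¹
      rw [← conj_zpow, ← conj_zpow, e]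
  have hf1 : ∀ x : T, f x = 1 ↔ (x : G) * r * (x : G)⁻¹ = r := fun x => by
    rw [← map_one f, hf]; simp
  have u : ∀ x : T, f x * f x = 1 → f x = 1 ∨ (x : G) * r * (x : G)⁻¹ = r * c := fun x e => by
    rw [← map_mul, hf1] at e
    rw [hf1]
    exact h2 x x.2 e
  obtain ⟨z, hz⟩ : ∃ z : f.range, ∀ x : f.range, x * x = 1 → x = 1 ∨ x = z := by
    by_cases e : ∃ y : T, (y : G) * r * (y : G)⁻¹ = r * c
    · obtain ⟨y, e⟩ := e
      refine ⟨⟨_, y, rfl⟩, ?_⟩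
      rintro ⟨_, x, rfl⟩ hx
      exact (u x (congrArg Subtype.val hx)).imp Subtype.ext fun e' => Subtype.ext ((hf x y).2 (e'.trans e.symm))
    · refine ⟨1, ?_⟩
      rintro ⟨_, x, rfl⟩ hx
      exact .inl (Subtype.ext ((u x (congrArg Subtype.val hx)).resolve_right fun e' => e ⟨x, e'⟩))
  haveI := H78.TwoOrbits.isCyclic_of_unique_invol (hT.of_surjective f.rangeRestrict f.rangeRestrict_surjective) z hz
  intro x hx y hy
  exact congrArg Subtype.val (commutative_of_cyclic_center_quotient f.rangeRestrict (fun k hk =>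
    mem_center_iff.2 fun s => Subtype.ext (h1 k k.2 ((hf1 k).1 (congrArg Subtype.val (MonoidHom.mem_ker.1 hk))) s s.2))
    ⟨x, hx⟩ ⟨y, hy⟩)

/-- commutators modulo a normal subgroup. -/
theorem comm_mem_of_dec {D : Subgroup G} (hn : S ≤ 𝐍(D)) (hD : D ≤ S) {L : Set G} (hL : ∀ x ∈ L, x ∈ S)
    (h1 : ∀ s ∈ S, ∃ x ∈ L, s * x⁻¹ ∈ D) (h2 : ∀ x ∈ L, ∀ y ∈ L, x * y * x⁻¹ * y⁻¹ ∈ D) :
    ∀ x ∈ S, ∀ y ∈ S, x * y * x⁻¹ * y⁻¹ ∈ D := fun x hx y hy => by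
  obtain ⟨x', hx', e⟩ := h1 x hx
  obtain ⟨y', hy', e'⟩ := h1 y hy
  have c := fun s (hs : s ∈ S) d (hd : d ∈ D) => conj_mem_of_mem_normalizer (hn hs) hd
  have xS := hL _ hx'
  have yS := hL _ hy'
  have := mul_mem (mul_mem (mul_mem (mul_mem e (c _ xS _ e')) (c _ (mul_mem (mul_mem xS yS) (inv_mem xS)) _
    (inv_mem e))) (h2 _ hx' _ hy')) (inv_mem e')
  convert this using 1
  group

/-- the centraliser of the dihedral group is elementary. -/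
structure DE (S : Subgroup G) (c α : G) (K : Set G) (a r : G) (n : ℕ) : Prop extends DD S c α K a r n where
  αS : α ∈ S
  cα : ∀ u ∈ S, u * a * u⁻¹ = a → u * α * u⁻¹ = α
  hC : ∀ u ∈ S, u * a * u⁻¹ = a → u * r * u⁻¹ = r → u * u ≠ α ∧ u * u ≠ c * α
  Kc : ∀ k ∈ K, IsConj k c

namespace DE

variable (h : DE S c α K a r n)
include h

theorem rS : r ∈ S := h.dk.rS h.pr h.aK h.bK

theorem aS : a ∈ S := h.dk.mem _ h.aK

theorem le : dg r a ≤ S := h.dk.le h.pr h.aK h.bK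

theorem αr : r * α * r⁻¹ = α := h.dk.αr h.pr h.aK h.bK

theorem α_not : α ∉ dg r a := h.dk.α_not h.pr h.aK h.bK

theorem zc0 (hu : u ∈ S) (e1 : u * a * u⁻¹ = a) (e2 : u * r * u⁻¹ = r) (u2 : u * u = 1) :
    u = 1 ∨ u = c ∨ u = α ∨ u = c * α := by
  have e3 := cj_symm e2
  have cr := h.dk.cc _ h.rS
  obtain ⟨v, rfl | rfl | rfl | rfl, rfl | rfl⟩ := h.dk.inv _ h.aK u hu u2 e1
  · simp
  · simp
  · simp
  · simp
  · exact absurd e3 h.pr.not_comm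
  · rw [cj_mul, h.αr] at e3
    exact absurd (mul_right_cancel e3) h.pr.not_comm
  · rw [cj_mul, cr] at e3
    exact absurd (mul_right_cancel e3) h.pr.not_comm
  · rw [cj_mul, cj_mul, cr, h.αr] at e3
    exact absurd (mul_right_cancel (mul_right_cancel e3)) h.pr.not_comm

theorem zc (hu : u ∈ S) (e1 : u * a * u⁻¹ = a) (e2 : u * r * u⁻¹ = r) : u = 1 ∨ u = c ∨ u = α ∨ u = c * α := by
  refine h.zc0 hu e1 e2 (by_contra fun u2 => ?_)
  obtain ⟨l, h1, h2, -⟩ := exists_ord h.dk.isP hu u2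
  have m1 := zpow_mem (mcs.2 e1) (2 ^ l)
  have m2 := zpow_mem (mcs.2 e2) (2 ^ l)
  have mS := zpow_mem hu (2 ^ l)
  obtain ⟨n1, n2⟩ := h.hC _ mS (mcs.1 m1) (mcs.1 m2)
  rcases h.zc0 (mul_mem mS mS) (mcs.1 (mul_mem m1 m1)) (mcs.1 (mul_mem m2 m2)) (by
    rw [← zpow_add, ← zpow_add, ← h2]; congr 1; ring) with e | e | e | e
  exacts [h1 e, (h.dk.ns _ h.aK _ mS (mcs.1 m1)).1 e, n1 e, n2 e]

theorem ab {x y : G} (hx : x ∈ S) (ex : x * a * x⁻¹ = a) (hy : y ∈ S) (ey : y * a * y⁻¹ = a) : x * y = y * x := by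
  obtain ⟨q, hq⟩ : ∃ q, q = r ^ (2 ^ n : ℤ) := ⟨_, rfl⟩
  have q2 : q * q = c := by rw [hq, ← zpow_add, ← two_mul, h.pr.half]
  have key := comm_of_act (T := S ⊓ centralizer {a} ⊓ centralizer {q}) (r := r) (c := c)
    h.dk.isP.to_inf_left.to_inf_left (fun t ht => nrm_of (by
      rintro _ ⟨j, rfl⟩
      obtain ⟨i, e⟩ := h.pr.nrm_r (h.nrm ht.1.1)
      rw [← conj_zpow, e]
      exact zpow_mem (zpow_mem (mem_zpowers r) i) j))
    (fun t ht e s hs => comm_of_cj (by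
      rcases h.zc ht.1.1 (mcs.1 ht.1.2) e with rfl | rfl | rfl | rfl
      · simp
      · exact h.dk.cc s hs.1.1
      · exact h.cα s hs.1.1 (mcs.1 hs.1.2)
      · rw [cj_mul, h.dk.cc s hs.1.1, h.cα s hs.1.1 (mcs.1 hs.1.2)])) fun t ht e => by
    obtain ⟨i, ei⟩ := h.pr.nrm_r (h.nrm ht.1.1)
    have ej : ∀ j : ℤ, t * r ^ j * t⁻¹ = r ^ (i * j) := fun j => by rw [← conj_zpow, ei, zpow_mul]
    have e1 : r ^ (i * i) = r := by
      rw [← ej, ← ei]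
      conv_rhs => rw [← e]
      group
    have e2 := mcs.1 ht.2
    rw [hq, ej, ← mul_inv_eq_one, ← zpow_sub, h.pr.eq_one, show i * 2 ^ n - 2 ^ n = (i - 1) * 2 ^ n by ring,
      mul_dvd_mul_iff_right (by positivity)] at e2
    obtain ⟨l, hl⟩ := e2
    have e3 : r ^ (i - 1) * r ^ (i - 1) = 1 := by
      rw [← mul_inv_eq_one, ← zpow_sub_one, h.pr.eq_one] at e1
      rw [← zpow_add, h.pr.eq_one]
      have co : IsCoprime (4 * 2 ^ n : ℤ) (2 * l + 1) := by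
        rw [show (4 * 2 ^ n : ℤ) = 2 ^ (n + 2) by ring]
        exact IsCoprime.pow_left ⟨-l, 1, by ring⟩
      refine co.dvd_of_dvd_mul_right ?_
      obtain rfl : i = 4 * l + 1 := by linarith
      rwa [show (4 * l + 1) * (4 * l + 1) - 1 = (4 * l + 1 - 1 + (4 * l + 1 - 1)) * (2 * l + 1) by ring] at e1
    rw [ei, show r ^ i = r * r ^ (i - 1) by group]
    exact (h.pr.invol e3).imp (fun e => by rw [e, mul_one]) fun e => by rw [e]
  have adj : ∀ x ∈ S, x * a * x⁻¹ = a → ∃ x' ∈ S ⊓ centralizer {a} ⊓ centralizer {q}, x = x' ∨ x = x' * a := by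
    intro x hx ex
    obtain ⟨i, ei⟩ := h.pr.nrm_r (h.nrm hx)
    obtain ⟨l, rfl⟩ := h.pr.odd_of ei
    have e : x * q * x⁻¹ = q * c ^ l := by rw [hq, ← conj_zpow, ei, ← h.pr.half]; group
    rcases (mem_zpowers_two h.pr.c2).1 (zpow_mem (mem_zpowers c) l) with e' | e' <;> rw [e'] at e
    · exact ⟨x, ⟨⟨hx, mcs.2 ex⟩, mcs.2 (by simpa using e)⟩, .inl rfl⟩
    · refine ⟨x * a, ⟨⟨mul_mem hx h.aS, mul_mem (mcs.2 ex) (mcs.2 (by group))⟩, mcs.2 ?_⟩,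
        .inr (by rw [mul_assoc, h.pr.a2, mul_one])⟩
      have : a * q * a⁻¹ = q⁻¹ := by rw [hq, inv_zp h.pr.inv, zpow_neg]
      calc _ = x * (a * q * a⁻¹) * x⁻¹ := by group
        _ = (x * q * x⁻¹)⁻¹ := by rw [this]; group
        _ = q := by rw [e, inv_eq_iff_mul_eq_one, mul_assoc, ← comm_of_cj (h.dk.cc q (hq ▸ zpow_mem h.rS _)),
            ← mul_assoc, q2, h.pr.c2]
  obtain ⟨x', hx', e⟩ := adj x hx ex
  obtain ⟨y', hy', e'⟩ := adj y hy ey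
  have c1 : Commute x' y' := key _ hx' _ hy'
  have c2 : Commute x' a := comm_of_cj (mcs.1 hx'.1.2)
  have c3 : Commute a y' := (comm_of_cj (mcs.1 hy'.1.2)).symm
  rcases e with rfl | rfl <;> rcases e' with rfl | rfl
  exacts [c1, c1.mul_right c2, c1.mul_left c3, (c1.mul_right c2).mul_left (c3.mul_right rfl)]

theorem dec (hs : s ∈ S) : (∃ (i : ℤ), ∃ t ∈ S, t * a * t⁻¹ = a ∧ s = r ^ i * t) ∨
    ∃ (i : ℤ), ∃ t ∈ S, t * a * t⁻¹ = r⁻¹ * a ∧ s = r ^ i * t := by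
  obtain ⟨j, e⟩ := h.dk.refl_of h.pr h.aK h.bK (h.dk.cj _ h.aK s hs) (h.sub _ (h.dk.cj _ h.aK s hs))
  obtain ⟨i, e'⟩ := h.pr.refl_cj j
  have : (r ^ i)⁻¹ * s * a * ((r ^ i)⁻¹ * s)⁻¹ = (r ^ i)⁻¹ * (r ^ j * a) * r ^ i := by rw [← e]; group
  exact e'.imp (fun e' => ⟨i, _, mul_mem (inv_mem (zpow_mem h.rS i)) hs, by rw [this, e']; group, by group⟩)
    fun e' => ⟨i, _, mul_mem (inv_mem (zpow_mem h.rS i)) hs, by rw [this, e']; group, by group⟩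

theorem invP {i : ℤ} (ht : t ∈ S) (e : t * a * t⁻¹ = a) (e2 : r ^ i * t * (r ^ i * t) = 1) :
    r ^ i * t ∈ dg r a ∨ r ^ i * t * α ∈ dg r a := by
  have rD := zpow_mem (m2l r a : r ∈ dg r a) i
  have tD : t * t ∈ dg r a := by
    have := inv_mem (mul_mem rD (conj_mem_of_mem_normalizer (h.nrm ht) rD))
    rwa [show (r ^ i * (t * r ^ i * t⁻¹))⁻¹ = t * t * (r ^ i * t * (r ^ i * t))⁻¹ by group, e2, inv_one, mul_one] at this
  have tta : t * t * a * (t * t)⁻¹ = a := mcs.1 (mul_mem (mcs.2 e) (mcs.2 e))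
  obtain ⟨n1, n2, n3⟩ := h.dk.ns _ h.aK t ht e
  have t2 : t * t = 1 := by
    obtain ⟨l, e' | e'⟩ := h.pr.mem.1 tD
    · rw [e'] at tta n1 ⊢
      exact (h.pr.cent tta).resolve_right n1
    · exact ((h.dk.kk _ h.aK _ (e' ▸ h.dk.reflK h.pr h.aK h.bK l) tta).elim n2 n3).elim
  obtain ⟨u, hu, e'⟩ := h.dk.inv _ h.aK t ht t2 e
  have uD : r ^ i * u ∈ dg r a := mul_mem rD (by
    rcases hu with rfl | rfl | rfl | rfl
    exacts [one_mem _, h.pr.cD, m2r _ _, mul_mem (m2r _ _) h.pr.cD])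
  rcases e' with rfl | rfl
  · exact .inl uD
  · exact .inr (by rwa [mul_assoc, mul_assoc, h.dk.α2, mul_one])

theorem invD (hg : g * α * g⁻¹ ∈ dg r a) : IsConj α c := by
  refine (isConj_iff.2 ⟨g, rfl⟩).trans ?_
  obtain ⟨j, e | e⟩ := h.pr.mem.1 hg
  · rcases h.pr.invol (e ▸ sq_cj g h.dk.α2) with e' | e'
    · exact absurd (by simpa using e.trans e') h.dk.α1
    · rw [e, e']
  · exact e ▸ h.Kc _ (h.dk.reflK h.pr h.aK h.bK j)

theorem transfer (F : H45.NE8.Fu G) (hS : IsSylowIn 2 S ⊤) {B : Subgroup G} (hB : B ≤ S)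
    (h1 : ∀ x ∈ S, ∀ y ∈ S, x * y * x⁻¹ * y⁻¹ ∈ B) (h2 : ∀ x ∈ S, x * x = 1 → x ∈ B ∨ x * α ∈ B) :
    ∃ g : G, g * α * g⁻¹ ∈ B :=
  (F.transfer hS hB h1 h.dk.α2 h.αS h2 (isP_of_sq (sq_zpowers h.dk.α2)) (mem_zpowers α)
    (zpowers_le.2 (mcs.2 (by group)))).imp fun _ => And.left

/-- the two classes of reflections are not fused in `S`. -/
theorem z4 (F : H45.NE8.Fu G) (hS : IsSylowIn 2 S ⊤) (hn : ∀ s ∈ S, s * a * s⁻¹ ≠ r⁻¹ * a) : False := by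
  have dec := fun s (hs : s ∈ S) => (h.dec hs).resolve_right fun ⟨_, t, ht, e, _⟩ => hn t ht e
  have cm := comm_mem_of_dec h.nrm h.le (L := {t | t ∈ S ∧ t * a * t⁻¹ = a}) (fun _ => And.left)
    (fun s hs => by
      obtain ⟨i, t, ht, e, rfl⟩ := dec s hs
      exact ⟨t, ⟨ht, e⟩, by rw [mul_inv_cancel_right]; exact zpow_mem (m2l r a) i⟩)
    fun x hx y hy => by rw [h.ab hx.1 hx.2 hy.1 hy.2]; simp
  obtain ⟨g, hg⟩ := h.transfer F hS h.le cm fun x hx x2 => by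
    obtain ⟨i, t, ht, e, rfl⟩ := dec x hx
    exact h.invP ht e x2
  obtain ⟨g, e⟩ := isConj_iff.1 (h.invD hg).symm
  obtain ⟨k, hk, e⟩ := H45.NE8.burn1 hS (fun s hs => mcs.2 (h.dk.cc s hs)) (fun s hs => by
    obtain ⟨i, t, ht, e, rfl⟩ := dec s hs
    exact mul_mem (zpow_mem (mcs.2 h.αr) i) (mcs.2 (h.cα t ht e))) e
  have := cm _ (conj_mem_of_mem_normalizer hk (zpow_mem h.rS (2 ^ n))) _ (conj_mem_of_mem_normalizer hk h.aS)
  refine h.α_not ?_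
  have e' := rot_cj h.pr.inv (2 ^ n) 0
  rw [zero_add, h.pr.half, zpow_zero, one_mul] at e'
  rw [← e, eq_mul_inv_of_mul_eq e'.symm]
  convert this using 1
  group

variable (hf : f ∈ S) (fa : f * a * f⁻¹ = r⁻¹ * a) (fα : f * α * f⁻¹ = c * α)
include hf fa fα

theorem out (ht : t ∈ S) (e : t * a * t⁻¹ = r⁻¹ * a) (i : ℤ) : r ^ i * t * α * (r ^ i * t)⁻¹ = c * α := by
  have e1 := h.cα _ (mul_mem (inv_mem hf) ht) (by
    calc _ = f⁻¹ * (t * a * t⁻¹) * f := by group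
      _ = a := by rw [e, ← fa]; group)
  calc _ = r ^ i * (f * (f⁻¹ * t * α * (f⁻¹ * t)⁻¹) * f⁻¹) * (r ^ i)⁻¹ := by group
    _ = _ := by rw [e1, fα, cj_mul, h.dk.cc _ (zpow_mem h.rS i), mcs.1 (zpow_mem (mcs.2 h.αr) i)]

theorem inP (hs : s ∈ S) (e : s * α * s⁻¹ = α) : ∃ (i : ℤ), ∃ t ∈ S, t * a * t⁻¹ = a ∧ s = r ^ i * t :=
  (h.dec hs).resolve_right fun ⟨i, t, ht, e1, e2⟩ => h.pr.c1 (by
    have := h.out hf fa fα ht e1 i
    rw [← e2, e] at this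
    simpa using this)

theorem mv (hs : s ∈ S) (e : s * α * s⁻¹ ≠ α) :
    s * α * s⁻¹ = c * α ∧ ∃ (i : ℤ), s * a * s⁻¹ = r ^ (2 * i - 1) * a := by
  obtain ⟨i, t, ht, e1, rfl⟩ := (h.dec hs).resolve_left fun ⟨i, t, ht, e1, e2⟩ =>
    e (e2 ▸ mcs.1 (mul_mem (zpow_mem (mcs.2 h.αr) i) (mcs.2 (h.cα t ht e1))))
  refine ⟨h.out hf fa fα ht e1 i, i, ?_⟩
  rw [show r ^ i * t * a * (r ^ i * t)⁻¹ = r ^ i * (t * a * t⁻¹) * (r ^ i)⁻¹ by group, e1, ← zpow_neg_one,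
    rot_cj h.pr.inv]
  congr 2
  ring

theorem mul_fix (hs : s ∈ S) (e : s * α * s⁻¹ ≠ α) (ht : t ∈ S) (e' : t * α * t⁻¹ ≠ α) :
    s * t * α * (s * t)⁻¹ = α := by
  rw [show s * t * α * (s * t)⁻¹ = s * (t * α * t⁻¹) * s⁻¹ by group, (h.mv hf fa fα ht e').1, cj_mul,
    h.dk.cc s hs, (h.mv hf fa fα hs e).1, ← mul_assoc, h.pr.c2, one_mul]

theorem centR (hs : s ∈ S) (e : s * α * s⁻¹ = α) (e' : s * r * s⁻¹ = r) : ∃ i : ℤ, s = r ^ i ∨ s = r ^ i * α := by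
  obtain ⟨i, t, ht, e1, rfl⟩ := h.inP hf fa fα hs e
  have := h.zc ht e1 (mcs.1 (by simpa using mul_mem (zpow_mem (mcs.2 (by group : r * r * r⁻¹ = r)) (-i)) (mcs.2 e')))
  rw [← h.pr.half] at this
  rcases this with rfl | rfl | rfl | rfl
  exacts [⟨i, .inl (mul_one _)⟩, ⟨_, .inl (zpow_add _ _ _).symm⟩, ⟨i, .inr rfl⟩,
    ⟨_, .inr (by rw [← mul_assoc, ← zpow_add])⟩]

theorem comm_f (ht : t ∈ S) (e : t * a * t⁻¹ = a) : f * t * f⁻¹ * t⁻¹ ∈ dg r a := by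
  obtain ⟨i, ei⟩ := h.pr.nrm_r (h.nrm ht)
  obtain ⟨u, eu⟩ := h.pr.nrm_r (h.nrm hf)
  have zi : ∀ j : ℤ, t * r ^ j * t⁻¹ = r ^ (i * j) := fun j => by rw [← conj_zpow, ei, zpow_mul]
  have zu : ∀ j : ℤ, f * r ^ j * f⁻¹ = r ^ (u * j) := fun j => by rw [← conj_zpow, eu, zpow_mul]
  have tα := h.cα t ht e
  have ftc : f * t * r * (f * t)⁻¹ = t * f * r * (t * f)⁻¹ := by
    calc _ = f * (t * r * t⁻¹) * f⁻¹ := by group
      _ = t * (f * r * f⁻¹) * t⁻¹ := by rw [ei, eu, zi, zu, mul_comm]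
      _ = _ := by group
  have ne : c * α ≠ α := fun e => h.pr.c1 (by simpa using e)
  have fm : f * α * f⁻¹ ≠ α := fα ▸ ne
  have m1 : f * t * α * (f * t)⁻¹ = c * α := by
    rw [show f * t * α * (f * t)⁻¹ = f * (t * α * t⁻¹) * f⁻¹ by group, tα, fα]
  have m2 : t * f * α * (t * f)⁻¹ = c * α := by
    rw [show t * f * α * (t * f)⁻¹ = t * (f * α * f⁻¹) * t⁻¹ by group, fα, cj_mul, h.dk.cc t ht, tα]
  obtain ⟨l, el⟩ := h.centR hf fa fα (mul_mem (mul_mem hf ht) (inv_mem (mul_mem ht hf)))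
    (h.mul_fix hf fa fα (mul_mem hf ht) (m1 ▸ ne) (inv_mem (mul_mem ht hf)) fun e =>
      ne (m2.symm.trans (mcs.1 ((inv_mem_iff (x := t * f)).1 (mcs.2 e))))) (by
    obtain ⟨j, ej⟩ := h.pr.nrm_r (inv_mem (h.nrm (mul_mem ht hf)))
    calc _ = f * t * ((t * f)⁻¹ * r * (t * f)⁻¹⁻¹) * (f * t)⁻¹ := by group
      _ = t * f * ((t * f)⁻¹ * r * (t * f)⁻¹⁻¹) * (t * f)⁻¹ := by rw [ej, ← conj_zpow, ← conj_zpow, ftc]
      _ = r := by group)
  rw [mul_inv_rev, ← mul_assoc] at el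
  rcases el with el | el
  · exact el ▸ zpow_mem (m2l r a) l
  exfalso
  have e1 : f * t * f⁻¹ = r ^ l * α * t := by rw [← el]; group
  obtain ⟨j, p, hp, pa, ep⟩ := h.inP hf fa fα (mul_mem hf hf) (h.mul_fix hf fa fα hf fm hf fm)
  obtain ⟨i, rfl⟩ := h.pr.odd_of ei
  obtain ⟨u, rfl⟩ := h.pr.odd_of eu
  have αz : ∀ j : ℤ, α * r ^ j * α⁻¹ = r ^ j := fun j => cj_symm (mcs.1 (zpow_mem (mcs.2 h.αr) j))
  have E1 : r ^ (2 * l - 2 * i) = 1 := by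
    have : r ^ l * (α * (t * r ^ (-1 : ℤ) * t⁻¹) * α⁻¹ * (α * (t * a * t⁻¹) * α⁻¹)) * (r ^ l)⁻¹ = r⁻¹ * a := by
      calc _ = r ^ l * α * t * (r⁻¹ * a) * (r ^ l * α * t)⁻¹ := by group
        _ = f * (t * a * t⁻¹) * f⁻¹ := by rw [← e1, ← fa]; group
        _ = _ := by rw [e, fa]
    rw [zi, e, cj_symm (h.dk.fα _ h.aK), αz, rot_cj h.pr.inv] at this
    rw [← mul_inv_cancel r, ← mul_right_cancel this]
    group
  have E2 : r ^ (2 * j + 2 * u + 2) = 1 := by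
    have : r ^ j * (r ^ (0 : ℤ) * (p * a * p⁻¹)) * (r ^ j)⁻¹ = f * r ^ (-1 : ℤ) * f⁻¹ * (f * a * f⁻¹) := by
      calc _ = r ^ j * p * a * (r ^ j * p)⁻¹ := by group
        _ = f * (f * a * f⁻¹) * f⁻¹ := by rw [← ep]; group
        _ = _ := by
          conv_lhs => rw [fa]
          group
    rw [pa, rot_cj h.pr.inv, zu, fa, ← mul_assoc] at this
    rw [show r ^ (2 * j + 2 * u + 2) = r ^ (0 + 2 * j) * r ^ (2 * u + 2) by group, mul_right_cancel this]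
    group
  have E3 : r ^ j * (t * r ^ (-j) * t⁻¹) * t = r ^ ((2 * u + 1) * l) * (c * (α * r ^ l * α⁻¹) * (α * α)) * t := by
    calc _ = r ^ j * (p * t * p⁻¹) * (r ^ j)⁻¹ := by rw [h.ab hp pa ht e]; group
      _ = f * (f * t * f⁻¹) * f⁻¹ := by rw [show r ^ j * (p * t * p⁻¹) * (r ^ j)⁻¹ =
          r ^ j * p * t * (r ^ j * p)⁻¹ by group, ← ep]; group
      _ = f * r ^ l * f⁻¹ * (f * α * f⁻¹) * (f * t * f⁻¹) := by
        conv_lhs => rw [e1]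
        group
      _ = _ := by rw [zu, fα, e1]; group
  rw [zi, αz, h.dk.α2, mul_one, ← h.pr.half] at E3
  have E4 := mul_right_cancel E3
  rw [← zpow_add, ← zpow_add, ← zpow_add, ← mul_inv_eq_one, ← zpow_sub] at E4
  refine h.pr.c1 ?_
  have : (2 * 2 ^ n : ℤ) = -(j + (2 * i + 1) * -j - ((2 * u + 1) * l + (2 * 2 ^ n + l))) +
    (2 * j + 2 * u + 2) * -i + (2 * l - 2 * i) * -(u + 1) := by ring
  rw [← h.pr.half, this, zpow_add, zpow_add, zpow_neg, zpow_mul, zpow_mul, E1, E2, E4]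
  simp

/-- involutions moving `α` lie in one coset of the rotation group. -/
theorem inv_out {x y : G} (hx : x ∈ S) (x2 : x * x = 1) (ex : x * α * x⁻¹ ≠ α) (hy : y ∈ S) (y2 : y * y = 1)
    (ey : y * α * y⁻¹ ≠ α) : x * y ∈ dg r a := by
  have iv : ∀ x ∈ S, x * x = 1 → x * α * x⁻¹ ≠ α → x * r * x⁻¹ = r⁻¹ := fun x hx x2 ex => by
    obtain ⟨-, i, e⟩ := h.mv hf fa fα hx ex
    have e1 : r ^ (2 * i - 1) = (x * a) ^ (2 : ℤ) := by
      rw [eq_mul_inv_of_mul_eq e.symm, inv_of_sq x2, inv_of_sq h.pr.a2, zpow_two, mul_assoc (x * a)]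
    obtain ⟨u, v, huv⟩ : IsCoprime (2 * i - 1) (4 * 2 ^ n : ℤ) := by
      rw [show (4 * 2 ^ n : ℤ) = 2 ^ (n + 2) by ring]
      exact IsCoprime.pow_right ⟨-1, i, by ring⟩
    have e2 : r = (x * a) ^ (2 * u) := by
      rw [zpow_mul, ← e1, ← zpow_mul, eq_comm, ← mul_inv_eq_one, ← zpow_sub_one, h.pr.eq_one]
      exact ⟨-v, by linarith⟩
    rw [e2, inv_zp (inv_l x2 h.pr.a2), zpow_neg]
  obtain ⟨i, e | e⟩ := h.centR hf fa fα (mul_mem hx hy) (h.mul_fix hf fa fα hx ex hy ey) (by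
    rw [show x * y * r * (x * y)⁻¹ = x * (y * r * y⁻¹) * x⁻¹ by group, iv y hy y2 ey, ← conj_inv, iv x hx x2 ex,
      inv_inv])
  · exact e ▸ zpow_mem (m2l r a) i
  · refine (h.pr.c1 ?_).elim
    have e1 : y = x * (r ^ i * α) := by rw [← e, ← mul_assoc, x2, one_mul]
    have αz := cj_symm (mcs.1 (zpow_mem (mcs.2 h.αr) i))
    calc c = r ^ i * (r ^ (-i) * (c * (α * r ^ i * α⁻¹) * (α * α))) * (r ^ i)⁻¹ := by rw [αz, h.dk.α2]; group
      _ = r ^ i * (x * r ^ i * x⁻¹ * (x * α * x⁻¹) * (x * x) * r ^ i * α) * (r ^ i)⁻¹ := by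
        rw [inv_zp (iv x hx x2 ex), (h.mv hf fa fα hx ex).1, x2]; group
      _ = r ^ i * (y * y) * (r ^ i)⁻¹ := by rw [e1]; group
      _ = 1 := by rw [y2]; group

/-- the two classes of reflections are fused in `S`, and `α` is moved. -/
theorem z2 (F : H45.NE8.Fu G) (hS : IsSylowIn 2 S ⊤) : IsConj α c := by
  have rD := fun i : ℤ => zpow_mem (m2l r a : r ∈ dg r a) i
  have cm := comm_mem_of_dec h.nrm h.le (L := {x | ∃ t ∈ S, t * a * t⁻¹ = a ∧ (x = t ∨ x = f * t)})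
    (by rintro _ ⟨t, ht, -, rfl | rfl⟩; exacts [ht, mul_mem hf ht])
    (fun s hs => by
      rcases h.dec hs with ⟨i, t, ht, e, rfl⟩ | ⟨i, t, ht, e, rfl⟩
      · exact ⟨t, ⟨t, ht, e, .inl rfl⟩, by rw [mul_inv_cancel_right]; exact rD i⟩
      · refine ⟨t, ⟨f⁻¹ * t, mul_mem (inv_mem hf) ht, ?_, .inr (by group)⟩, by rw [mul_inv_cancel_right]; exact rD i⟩
        calc _ = f⁻¹ * (t * a * t⁻¹) * f := by group
          _ = a := by rw [e, ← fa]; group) (by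
    have sy : ∀ x y : G, x * y * x⁻¹ * y⁻¹ ∈ dg r a → y * x * y⁻¹ * x⁻¹ ∈ dg r a := fun x y e => by
      simpa [mul_assoc] using inv_mem e
    have ml : ∀ x y : G, f * y * f⁻¹ * y⁻¹ ∈ dg r a → x * y * x⁻¹ * y⁻¹ ∈ dg r a →
        f * x * y * (f * x)⁻¹ * y⁻¹ ∈ dg r a := fun x y e e' => by
      convert mul_mem (conj_mem_of_mem_normalizer (h.nrm hf) e') e using 1
      group
    rintro _ ⟨x, hx, ex, e⟩ _ ⟨y, hy, ey, e'⟩
    have c0 : x * y * x⁻¹ * y⁻¹ ∈ dg r a := by rw [h.ab hx ex hy ey]; simp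
    have c1 := h.comm_f hf fa fα hx ex
    have c2 := h.comm_f hf fa fα hy ey
    have c3 := sy _ _ (ml _ _ c1 (sy _ _ c0))
    rcases e with rfl | rfl <;> rcases e' with rfl | rfl
    exacts [c0, c3, ml _ _ c2 c0, ml _ _ (sy _ _ (ml _ _ (by simp) (sy _ _ c2))) c3])
  have iP : ∀ x ∈ S, x * x = 1 → x * α * x⁻¹ = α → x ∈ dg r a ∨ x * α ∈ dg r a := fun x hx x2 e => by
    obtain ⟨i, t, ht, e', rfl⟩ := h.inP hf fa fα hx e
    exact h.invP ht e' x2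
  by_cases ex : ∃ x ∈ S, x * x = 1 ∧ x * α * x⁻¹ ≠ α
  swap
  · push Not at ex
    obtain ⟨g, hg⟩ := h.transfer F hS h.le cm fun x hx x2 => iP x hx x2 (ex x hx x2)
    exact h.invD hg
  obtain ⟨y, hy, y2, ey⟩ := ex
  have yS := mul_mem hy h.αS
  have mem : ∀ g, g ∈ dg r a ⊔ zpowers (y * α) ↔ g ∈ dg r a ∨ g * (y * α)⁻¹ ∈ dg r a := fun g =>
    H45.NE8.mem_sup_zp (h.nrm yS) (by
      have : y * α * (y * α) = y * α * y⁻¹ * (y * y) * α := by group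
      rw [this, (h.mv hf fa fα hy ey).1, y2, mul_one, mul_assoc, h.dk.α2, mul_one]
      exact h.pr.cD)
  obtain ⟨g, hg⟩ := h.transfer F hS (B := dg r a ⊔ zpowers (y * α)) (sup_le h.le (zpowers_le.2 yS))
    (fun x hx y hy => mem_sup_left (cm x hx y hy)) fun x hx x2 => by
      by_cases e : x * α * x⁻¹ = α
      · exact (iP x hx x2 e).imp mem_sup_left mem_sup_left
      · refine .inr ((mem _).2 (.inr ?_))
        rw [mul_inv_rev, ← mul_assoc, mul_inv_cancel_right, inv_of_sq y2]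
        exact h.inv_out hf fa fα hx x2 e hy y2 ey
  refine h.invD (((mem _).1 hg).resolve_right fun e => h.α_not ?_)
  have gS : g * α * g⁻¹ ∈ S := sup_le h.le (zpowers_le.2 yS) hg
  have g2 := sq_cj g h.dk.α2
  generalize g * α * g⁻¹ = x at e gS g2
  have e1 := h.inv_out hf fa fα gS g2 (fun e' => ey (mcs.1 (by
    simpa using mul_mem (mul_mem (inv_mem (mcs.2 (h.dk.αD h.pr h.aK h.bK e))) (mcs.2 e'))
      (inv_mem (mcs.2 (by group : α * α * α⁻¹ = α)))))) hy y2 ey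
  have := conj_mem_of_mem_normalizer' (h.nrm hy) (mul_mem (inv_mem e) e1)
  rwa [show y⁻¹ * ((x * (y * α)⁻¹)⁻¹ * (x * y)) * y = α * (y * y) by group, y2, mul_one] at this

end DE

end H22.RG
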