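import Mathlib
import Cfsg.Agent.Base
import Cfsg.Agent.Lib.Rk3G.Ab

/-! Groups of 2-rank 3: eight-groups with automizer `S₃` lead to a transfer. -/

set_option autoImplicit false
set_option linter.unusedSectionVars false
set_option linter.unusedVariables false

namespace H22.RG

open Subgroup H69 H70 Cfsg H22.RK
open scoped commutatorElement Pointwise

variable {G : Type*} [Group G] [Finite G] {S Y Y' : Subgroup G} {K : Set G}
  {a c w x m a' c' w' x' m' g k u r α z : G} {n : ℕ}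

theorem NS.cj (h : NS S Y a) (hg : g ∈ 𝐍(S)) : NS S (Y ^ᶜ g) (g * a * g⁻¹) := fun u hu hc hY => by
  rw [← cj_centralizer, mem_cj] at hc
  have e : u * u = g * (g⁻¹ * u * g * (g⁻¹ * u * g)) * g⁻¹ := by group
  rw [e, cj_mem_iff] at hY
  rw [e]
  exact (h _ (conj_mem_of_mem_normalizer' hg hu) hc hY).imp (fun e => by rw [e]; simp) fun e => by rw [e]

/-- `k` is the third basis vector of a good eight-group over `⟨c, α⟩`. -/
def Km (S : Subgroup G) (c α k a : G) : Prop :=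
  ∃ Y x m, Gd S Y a c k x m ∧ NS S Y a ∧ Tr Y x c α k

theorem Gd.km (h : Gd S Y a c w x m) (hs : NS S Y a) (hg : g ∈ S) (e : α = g * a * g⁻¹ ∨ α = g * a * g⁻¹ * c) :
    Km S c α (g * w * g⁻¹) (g * a * g⁻¹) := by
  have h' := h.cjS hg
  rw [h.c_cen hg] at h'
  refine ⟨_, _, _, h', hs.cj (le_normalizer hg), ?_⟩
  rcases e with rfl | rfl
  · exact h'.tr
  · exact h'.tr.chg (mul_mem h'.tr.yX h'.tr.cX) (by rw [cj_mul, h'.tr.ty, h'.tr.tc])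
      (fun e => h'.tr.yc (by rw [eq_inv_of_mul_eq_one_left e, inv_of_sq h'.tr.c2])) fun e => h'.tr.y1 (by simpa using e)

theorem Km.cα (h : Km S c α k a) (hu : u ∈ S) (e : u * k * u⁻¹ = k) : u * α * u⁻¹ = α := by
  obtain ⟨Y, x, m, h, -, t⟩ := h
  exact conj_eq_of_mem_centralizer (h.cent t.vX t.not_fix hu e) t.yX

theorem Km.sq (h : Km S c α k a) (hu : u ∈ S) (e : u * k * u⁻¹ = k) (h2 : u * u = α ∨ u * u = c * α) : u * u = a := by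
  obtain ⟨Y, x, m, h, hs, t⟩ := h
  refine (hs u hu (h.cent t.vX t.not_fix hu e) (h2.elim (· ▸ t.yX) (· ▸ t.wX))).resolve_left fun e' => ?_
  rcases h2 with e | e <;> rw [e] at e'
  exacts [t.y1 e', t.yc (by rw [eq_inv_of_mul_eq_one_right e', inv_of_sq t.c2])]

theorem dk_of (hK : ∀ k ∈ K, ∃ a, Km S c α k a) (cj : ∀ k ∈ K, ∀ s ∈ S, s * k * s⁻¹ ∈ K)
    (kk : ∀ k ∈ K, ∀ k' ∈ K, k' * k * k'⁻¹ = k → k' = k ∨ k' = k * c) (nc : ∃ k ∈ K, ∃ k' ∈ K, k * k' ≠ k' * k) :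
    DK S c α K := by
  obtain ⟨k0, hk0, -⟩ := id nc
  obtain ⟨a0, Y0, x0, m0, h0, -, t0⟩ := hK k0 hk0
  refine ⟨h0.isP, t0.y1, t0.yc, t0.y2, fun k hk => ?_, fun k hk => ?_, fun k hk => ?_, cj, fun k hk d hd d2 e => ?_,
    kk, fun k hk u hu e => ?_, fun s hs => h0.c_cen hs, nc⟩ <;> obtain ⟨a, Y, x, m, h, hs, t⟩ := hK k hk
  · exact h.le t.vX
  · exact t.v2
  · exact E8.cj t.e8 t.vX t.yX
  · have c1 := t.cm t.cX t.vX
    have c2 := t.cm t.yX t.vX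
    rcases t.e8.cases t.cX t.yX t.vX t.ind (h.inv t.vX t.not_fix hd d2 e) with e | e | e | e | e | e | e | e
    exacts [⟨1, by simp, .inl e⟩, ⟨c, by simp, .inl e⟩, ⟨1, by simp, .inr (by simpa using e)⟩,
      ⟨c, by simp, .inr e⟩, ⟨k, by simp, .inl e⟩, ⟨k * c, by simp, .inl (e.trans c1)⟩,
      ⟨k, by simp, .inr (e.trans c2)⟩, ⟨k * c, by simp, .inr (by rw [e, mul_assoc, c2, ← mul_assoc, c1])⟩]
  · have hc := h.cent t.vX t.not_fix hu e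
    have f : u * u ∈ Y → x * (u * u) * x⁻¹ = u * u := fun hY => by
      rcases hs u hu hc hY with e | e <;> rw [e]
      exacts [by simp, h.tr.ty]
    refine ⟨h.not_sq_c hs hu hc, fun e => t.not_fix (e ▸ f (e ▸ t.vX)), fun e => t.not_fix ?_⟩
    have := f (e ▸ mul_mem t.vX t.cX)
    rw [e, cj_mul, t.tc] at this
    exact mul_right_cancel this

theorem DD.de {b : G} (h : DD S c α K b r n) (h1 : Km S c α b a) (h2 : Km S c α (r⁻¹ * b) a') (hne : a ≠ a')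
    (Kc : ∀ k ∈ K, IsConj k c) : DE S c α K b r n := by
  have : ∀ u ∈ S, u * b * u⁻¹ = b → u * r * u⁻¹ = r → ¬ (u * u = α ∨ u * u = c * α) := fun u hu e e' h3 =>
    hne ((h1.sq hu e h3).symm.trans (h2.sq hu (by rw [cj_mul, conj_inv.symm, e', e]) h3))
  obtain ⟨Y, x, m, h', -, t⟩ := id h1
  exact ⟨h, h'.le t.yX, fun u hu e => h1.cα hu e, fun u hu e e' => not_or.1 (this u hu e e'), Kc⟩

theorem DD.dec {b s : G} (h : DD S c α K b r n) (hs : s ∈ S) :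
    ∃ (i : ℤ), ∃ t ∈ S, (t * b * t⁻¹ = b ∨ t * b * t⁻¹ = r⁻¹ * b) ∧ s = r ^ i * t := by
  obtain ⟨j, e⟩ := h.dk.refl_of h.pr h.aK h.bK (h.dk.cj _ h.aK s hs) (h.sub _ (h.dk.cj _ h.aK s hs))
  obtain ⟨i, e'⟩ := h.pr.refl_cj j
  have : (r ^ i)⁻¹ * s * b * ((r ^ i)⁻¹ * s)⁻¹ = (r ^ i)⁻¹ * (r ^ j * b) * r ^ i := by rw [← e]; group
  exact ⟨i, _, mul_mem (inv_mem (zpow_mem (h.dk.rS h.pr h.aK h.bK) i)) hs,
    e'.imp (fun e' => by rw [this, e']; group) fun e' => by rw [this, e']; group, by group⟩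

theorem Gd.kk (h : Gd S Y a c w x m) {s s' : G} (hs : s ∈ S) (hs' : s' ∈ S)
    (e : s' * w * s'⁻¹ * (s * w * s⁻¹) * (s' * w * s'⁻¹)⁻¹ = s * w * s⁻¹) :
    s' * w * s'⁻¹ = s * w * s⁻¹ ∨ s' * w * s'⁻¹ = s * w * s⁻¹ * c := by
  have h' := h.cjS hs
  rw [h.c_cen hs] at h'
  have e1 : s' * w * s'⁻¹ = s' * s⁻¹ * (s * w * s⁻¹) * (s' * s⁻¹)⁻¹ := by group
  have gS := mul_mem hs' (inv_mem hs)
  have := h'.inv h'.tr.vX h'.tr.not_fix ((h.cjS hs').le (h.cjS hs').tr.vX) (h.cjS hs').tr.v2 e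
  rw [e1] at this ⊢
  exact h'.act' gS (h'.nrm h'.tr.vX h'.tr.not_fix gS this) h'.tr.vX

/-- a normal four-group through the central involution. -/
theorem exists_four (hS : IsPGroup 2 S) (hY : E8 Y) (hle : Y ≤ S)
    (hz : ∀ y ∈ S, y * y = 1 → (∀ s ∈ S, s * y * s⁻¹ = y) → y = 1 ∨ y = z) :
    ∃ u ∈ S, u * u = 1 ∧ u ≠ 1 ∧ u ≠ z ∧ ∀ s ∈ S, s * u * s⁻¹ = u ∨ s * u * s⁻¹ = u * z := by
  obtain ⟨U, h1, h2, h3⟩ := H45.NE8.exists_four hS hle hY.sq (by rw [hY.card]; decide)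
  have sq : ∀ y ∈ U, y * y = 1 := fun y hy => congrArg Subtype.val (IsKleinFour.mul_self (⟨y, hy⟩ : U))
  have h4 : Nat.card U = 4 := h3.card_four
  obtain ⟨⟨y, hy⟩, y1⟩ := (ne_bot_iff_exists_ne_one).1 (inf_centralizer_ne_bot (isP_of_sq sq) hS h2 fun e => by
    rw [e, card_bot] at h4; omega)
  have cz : ∀ s ∈ S, s * y * s⁻¹ = y := fun s hs => cj_symm (conj_eq_of_mem_centralizer hy.2 hs)
  replace y1 : y ≠ 1 := fun e => y1 (Subtype.ext e)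
  obtain rfl := (hz y (h1 hy.1) (sq y hy.1) cz).resolve_left y1
  obtain ⟨u, hu, hu'⟩ := exists_not_mem (A := zpowers y) (B := U) (by
    rw [h4, Nat.card_zpowers, orderOf_two (sq y hy.1) y1]; decide)
  rw [mem_zpowers_two (sq y hy.1), not_or] at hu'
  have cm := comm_of_sq sq hy.1 hu
  have e : zpowers y ⊔ zpowers u = U := Subgroup.eq_of_le_of_card_ge (sup_le (zpowers_le.2 hy.1) (zpowers_le.2 hu))
    (by rw [h4, card_sp2 (sq y hy.1) (sq u hu) cm y1 hu'.1 hu'.2])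
  refine ⟨u, h1 hu, sq u hu, hu'.1, hu'.2, fun s hs => ?_⟩
  rcases (mem_sp2 (sq y hy.1) (sq u hu) cm).1 (e ▸ conj_mem_of_mem_normalizer (h2 hs) hu) with e | e | e | e
  · exact absurd (by simpa using e) hu'.1
  · exact absurd (by simpa using e.trans (cz s hs).symm) hu'.2
  · exact .inl e
  · exact .inr (e.trans cm)

/-- cyclic centre. -/
theorem Gd.z2 (h : Gd S Y a c w x m) (F : H45.NE8.Fu G) (hS : IsSylowIn 2 S ⊤)
    (hz : ∀ y ∈ S, y * y = 1 → (∀ s ∈ S, s * y * s⁻¹ = y) → y = 1 ∨ y = c) : IsConj a c := by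
  have na : ¬ ∀ s ∈ S, s * a * s⁻¹ = a := fun e => (hz a (h.le h.tr.yX) h.tr.y2 e).elim h.tr.y1 h.tr.yc
  have hn : ¬ S ≤ 𝐍(Y) := fun e => na fun s hs => h.fix hs (e hs) h.tr.yX h.tr.ty
  obtain ⟨u, hu, u2, u1, uc, hU⟩ := exists_four h.isP h.e8 h.le hz
  have ac := fun g (hg : g ∈ S) => h.a_cj hn hu u2 u1 uc hU hg
  have km : ∀ g ∈ S, Km S c a (g * w * g⁻¹) (g * a * g⁻¹) := fun g hg => h.km (h.ns_of_not hn) hg
    ((ac g hg).imp Eq.symm fun e => by rw [e, mul_assoc, h.tr.c2, mul_one])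
  obtain ⟨y, hy, e1, -⟩ := h.exists_y hn
  obtain ⟨b, r, n, d⟩ := (dk_of (S := S) (c := c) (α := a) (K := {k | ∃ s ∈ S, k = s * w * s⁻¹})
    (by rintro _ ⟨s, hs, rfl⟩; exact ⟨_, km s hs⟩)
    (by rintro _ ⟨s, hs, rfl⟩ t ht; exact ⟨t * s, mul_mem ht hs, by group⟩)
    (by rintro _ ⟨s, hs, rfl⟩ _ ⟨s', hs', rfl⟩ e; exact h.kk hs hs' e)
    ⟨w, ⟨1, one_mem _, by simp⟩, _, ⟨y, hy, rfl⟩, h.not_comm (h.cjS hy) e1⟩).exists_dd
  obtain ⟨s, hs, eb⟩ := d.aK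
  obtain ⟨s', hs', eb'⟩ := d.bK
  have fS := mul_mem hs' (inv_mem hs)
  have fa : s' * s⁻¹ * b * (s' * s⁻¹)⁻¹ = r⁻¹ * b := by rw [eb', eb]; group
  have k1 := eb ▸ km s hs
  have fα : s' * s⁻¹ * a * (s' * s⁻¹)⁻¹ ≠ a := fun e => na fun g hg => by
    obtain ⟨i, t, ht, e', rfl⟩ := d.dec hg
    refine mcs.1 (mul_mem (zpow_mem (mcs.2 (d.dk.αr d.pr d.aK d.bK)) i) ?_)
    rcases e' with e' | e'
    · exact mcs.2 (k1.cα ht e')
    · have := k1.cα (mul_mem (inv_mem fS) ht) (by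
        calc _ = (s' * s⁻¹)⁻¹ * (t * b * t⁻¹) * (s' * s⁻¹) := by group
          _ = b := by rw [e', ← fa]; group)
      have := mul_mem (mcs.2 e) (mcs.2 this)
      rwa [mul_inv_cancel_left] at this
  refine (d.de k1 (eb' ▸ km s' hs') (fun e => fα ?_) ?_).z2 fS fa
    (((ac _ fS).resolve_left fα).trans (h.tr.cm h.tr.yX h.tr.cX)) F hS
  · have e' : s' * s⁻¹ * (s * a * s⁻¹) * (s' * s⁻¹)⁻¹ = s * a * s⁻¹ := by
      conv_rhs => rw [e]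
      group
    rcases ac s hs with e | e <;> rw [e] at e'
    · exact e'
    · rw [cj_mul, h.c_cen fS] at e'
      exact mul_right_cancel e'
  · rintro _ ⟨s, hs, rfl⟩
    exact (isConj_iff.2 ⟨s, rfl⟩ : IsConj w _).symm.trans h.conj_w

/-- the fixed point of the automizer. -/
def FX (Y : Subgroup G) (a : G) : Prop := ∀ g ∈ 𝐍(Y), g * a * g⁻¹ = a

theorem FX.cj (h : FX Y a) (g : G) : FX (Y ^ᶜ g) (g * a * g⁻¹) := fun k hk => by
  rw [← cj_normalizer, mem_cj] at hk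
  conv_rhs => rw [← h _ hk]
  group

theorem Gd.uniq (h : Gd S Y a c w x m) (hf : FX Y a') (ha : a' ∈ Y) (a1 : a' ≠ 1) : a' = a := by
  have e := hf _ h.tr'.nrm
  rcases h.tr.fix ha (hf _ h.tr.nrm) with rfl | rfl | rfl | rfl
  · exact absurd rfl a1
  · exact absurd e h.tr'.not_fix
  · rfl
  · rw [cj_mul, h.tr'.ty] at e
    exact absurd (mul_right_cancel e) h.tr'.not_fix

theorem Gd.mem_y (h : Gd S Y a c w x m) (hn : ¬ S ≤ 𝐍(Y)) {y : G} (hy : y ∈ S) (e1 : Y ^ᶜ y ≠ Y)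
    (e2 : S ⊓ 𝐍(Y ^ᶜ y) = S ⊓ 𝐍(Y)) (hu : u ∈ S) (u2 : u * u = 1) (uN : u ∈ 𝐍(Y)) (uC : u ∉ 𝐂(Y)) :
    u ∈ Y ^ᶜ y := by
  have h' := h.cjS hy
  have sN : ∀ s, s ∈ S ⊓ 𝐍(Y ^ᶜ y) ↔ s ∈ S ⊓ 𝐍(Y) := fun s => by rw [e2]
  have sS := h'.le h'.tr.vX
  have us := h.mul_cent hu uN uC sS ((sN _).1 ⟨sS, le_normalizer h'.tr.vX⟩).2 fun e' =>
    e1 (h'.eq_of_mem h'.tr.vX h'.tr.not_fix h.e8 h.le e').symm
  rcases h'.act' hu ((sN _).2 ⟨hu, uN⟩).2 h'.tr.vX with e' | e'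
  · exact h'.inv h'.tr.vX h'.tr.not_fix hu u2 e'
  · refine (h.not_sq_c (h.ns_of_not hn) (mul_mem hu sS) us ?_).elim
    rw [h.c_cen hy] at e'
    have v2 := h'.tr.v2
    have cs := comm_of_cj (h.c_cen sS)
    generalize y * w * y⁻¹ = s at *
    calc _ = u * s * u⁻¹ * s := by rw [inv_of_sq u2, mul_assoc (u * s)]
      _ = c := by rw [e', cs, mul_assoc, v2, mul_one]

/-- centre of rank two. -/
theorem Gd.z4 (h : Gd S Y a c w x m) (h' : Gd S Y' a' c' w' x' m') (f : FX Y a) (f' : FX Y' a') (hne : a' ≠ a)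
    (F : H45.NE8.Fu G) (hS : IsSylowIn 2 S ⊤) (za : ∀ s ∈ S, s * a * s⁻¹ = a) (za' : ∀ s ∈ S, s * a' * s⁻¹ = a') :
    False := by
  have cen : ∀ {y : G} {E : Subgroup G}, (∀ s ∈ S, s * y * s⁻¹ = y) → E ≤ S → y ∈ 𝐂(E) := fun hy hE =>
    mem_centralizer_iff_commute.2 fun s hs => comm_of_cj (hy s (hE hs))
  have ne : ∀ s ∈ S, Y' ^ᶜ s ≠ Y := fun s hs e => hne (h.uniq (by have := f'.cj s; rwa [za' s hs, e] at this)
    (h.memY h'.tr.y2 (cen za' h.le)) h'.tr.y1)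
  have ne' : ∀ s ∈ S, Y ^ᶜ s ≠ Y' := fun s hs e => ne _ (inv_mem hs) (by rw [← e, cj_cj_inv])
  have n1 : Y' ≠ Y := cj_one Y' ▸ ne 1 (one_mem _)
  obtain rfl := h.same_c h' n1
  have ea : a' = a * c' := by
    rcases h.tr.fix (h.memY h'.tr.y2 (cen za' h.le)) (za' x h.xS) with e | e | e | e
    exacts [absurd e h'.tr.y1, absurd e h'.tr.yc, absurd e hne, e.trans (h.tr.cm h.tr.cX h.tr.yX)]
  have nn : ∀ {Y Y' : Subgroup G} {a a' w w' x x' m m' : G}, Gd S Y a c' w x m → Gd S Y' a' c' w' x' m' → Y' ≠ Y →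
      S ≤ 𝐍(Y) → S ≤ 𝐍(Y') := fun {Y Y' a a' w w' x x' m m'} h h' n1 hn s hs => by
    have wS := h.le h.tr.vX
    have wS' := h'.le h'.tr.vX
    have nc := h.not_comm h' n1
    have e1 : w * w' * w⁻¹ = w' * c' := by
      have := (h.act' wS' (hn wS') h.tr.vX).resolve_left fun e => nc (comm_of_cj e).symm
      calc _ = w' * (w' * w * w'⁻¹) * w⁻¹ := by
            rw [← mul_assoc, ← mul_assoc, h'.tr.v2, one_mul, inv_of_sq h'.tr.v2]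
        _ = w' * (w * c' * w⁻¹) := by rw [this]; group
        _ = _ := by rw [h.c_cen wS]
    have wN := h'.nrm h'.tr.vX h'.tr.not_fix wS (e1 ▸ mul_mem h'.tr.vX h'.tr.cX)
    by_contra hs'
    obtain ⟨y, hy, e2, e3⟩ := h'.exists_y fun e => hs' (e hs)
    have := h.eq_of_mem h.tr.vX h.tr.not_fix (h'.cjS hy).e8 (h'.cjS hy).le (E8.le_cent (h'.cjS hy).e8
      (h'.mem_y (fun e => hs' (e hs)) hy e2 e3 wS h.tr.v2 wN fun e =>
        nc (comm_of_cj (conj_eq_of_mem_centralizer e h'.tr.vX))))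
    exact n1 (by rw [cj_eq_iff.1 this, cj_eq_of_mem_normalizer (inv_mem (hn hy))])
  have ns : NS S Y a := by
    by_cases hn : S ≤ 𝐍(Y)
    exacts [h.ns h' n1 (inf_le_left.trans (nn h h' n1 hn)), h.ns_of_not hn]
  have ns' : NS S Y' a' := by
    by_cases hn : S ≤ 𝐍(Y')
    exacts [h'.ns h n1.symm (inf_le_left.trans (nn h' h n1.symm hn)), h'.ns_of_not hn]
  have km : ∀ g ∈ S, Km S c' a (g * w * g⁻¹) a := fun g hg => by
    have := h.km ns hg (.inl (za g hg).symm)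
    rwa [za g hg] at this
  have km' : ∀ g ∈ S, Km S c' a (g * w' * g⁻¹) a' := fun g hg => by
    have := h'.km (α := a) ns' hg (.inr (by rw [za' g hg, ea, mul_assoc, h.tr.c2, mul_one]))
    rwa [za' g hg] at this
  have nc : ∀ s ∈ S, ∀ s' ∈ S, s * w * s⁻¹ * (s' * w' * s'⁻¹) ≠ s' * w' * s'⁻¹ * (s * w * s⁻¹) := fun s hs s' hs' =>
    (h.cjS hs).not_comm (h'.cjS hs') fun e => ne _ (mul_mem (inv_mem hs) hs') (by rw [← cj_cj, e, cj_cj_inv])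
  obtain ⟨b, r, n, d⟩ := (dk_of (S := S) (c := c') (α := a)
    (K := {k | ∃ s ∈ S, k = s * w * s⁻¹ ∨ k = s * w' * s⁻¹})
    (by rintro _ ⟨s, hs, rfl | rfl⟩; exacts [⟨_, km s hs⟩, ⟨_, km' s hs⟩])
    (by rintro _ ⟨s, hs, rfl | rfl⟩ t ht
        exacts [⟨t * s, mul_mem ht hs, .inl (by group)⟩, ⟨t * s, mul_mem ht hs, .inr (by group)⟩])
    (by rintro _ ⟨s, hs, rfl | rfl⟩ _ ⟨s', hs', rfl | rfl⟩ e
        exacts [h.kk hs hs' e, absurd (comm_of_cj e).symm (nc s hs s' hs'), absurd (comm_of_cj e) (nc s' hs' s hs),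
          h'.kk hs hs' e])
    ⟨w, ⟨1, one_mem _, by simp⟩, w', ⟨1, one_mem _, by simp⟩, h.not_comm h' n1⟩).exists_dd
  have Kc : ∀ k ∈ {k | ∃ s ∈ S, k = s * w * s⁻¹ ∨ k = s * w' * s⁻¹}, IsConj k c' := by
    rintro _ ⟨s, hs, rfl | rfl⟩
    exacts [(isConj_iff.2 ⟨s, rfl⟩ : IsConj w _).symm.trans h.conj_w,
      (isConj_iff.2 ⟨s, rfl⟩ : IsConj w' _).symm.trans h'.conj_w]
  have nw : ∀ s ∈ S, s * w * s⁻¹ ≠ w' := fun s hs e => nc s hs 1 (one_mem _) (by rw [e]; group)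
  have cls : ∀ k ∈ {k | ∃ s ∈ S, k = s * w * s⁻¹ ∨ k = s * w' * s⁻¹},
      ∃ s ∈ S, k = s * b * s⁻¹ ∨ k = s * (r⁻¹ * b) * s⁻¹ := fun k hk => by
    obtain ⟨j, e⟩ := d.dk.refl_of d.pr d.aK d.bK hk (d.sub _ hk)
    obtain ⟨i, e'⟩ := d.pr.refl_cj j
    exact ⟨_, zpow_mem (d.dk.rS d.pr d.aK d.bK) i, e ▸ e'⟩
  obtain ⟨s, hs, e | e⟩ := d.aK <;> obtain ⟨s', hs', e' | e'⟩ := d.bK
  · obtain ⟨t, ht, e1 | e1⟩ := cls w' ⟨1, one_mem _, by simp⟩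
    exacts [nw _ (mul_mem ht hs) (by rw [e1, e]; group), nw _ (mul_mem ht hs') (by rw [e1, e']; group)]
  · refine (d.de (e ▸ km s hs) (e' ▸ km' s' hs') hne.symm Kc).z4 F hS fun t ht e1 =>
      nw _ (mul_mem (mul_mem (inv_mem hs') ht) hs) ?_
    calc _ = s'⁻¹ * (t * (s * w * s⁻¹) * t⁻¹) * s' := by group
      _ = w' := by rw [← e, e1, e']; group
  · refine (d.de (e ▸ km' s hs) (e' ▸ km s' hs') hne Kc).z4 F hS fun t ht e1 =>
      nw _ (mul_mem (mul_mem (inv_mem hs) (inv_mem ht)) hs') ?_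
    calc _ = s⁻¹ * (t⁻¹ * (s' * w * s'⁻¹) * t) * s := by group
      _ = w' := by rw [← e', ← e1, e]; group
  · obtain ⟨t, ht, e1 | e1⟩ := cls w ⟨1, one_mem _, by simp⟩
    exacts [nw _ (inv_mem (mul_mem ht hs)) (by rw [e1, e]; group),
      nw _ (inv_mem (mul_mem ht hs')) (by rw [e1, e']; group)]

end H22.RG
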