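import Mathlib
import Cfsg.Agent.Base
import Cfsg.Agent.Lib.Rk3G.Kill

/-! Groups of 2-rank 3: the centre of a Sylow 2-subgroup does not have rank two. -/

set_option autoImplicit false
set_option linter.unusedSectionVars false
set_option linter.unusedVariables false

namespace H22.RG

open Subgroup H69 H70 Cfsg H22.RK
open scoped commutatorElement Pointwise

variable {G : Type*} [Group G] [Finite G] {S Y E X : Subgroup G} {a c w x m g k u y v z z' t n : G}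

theorem fulln (hS : IsSylowIn 2 S ⊤) (X : Subgroup G) :
    ∃ h, (S ⊓ 𝐍(X)) ^ᶜ h ≤ S ∧ IsSylowIn 2 (S ⊓ 𝐍(X ^ᶜ h)) 𝐍(X ^ᶜ h) := by
  obtain ⟨R, hR, hle⟩ := exists_isSylowIn_le (L := 𝐍(X)) hS.isP.to_inf_left inf_le_right
  obtain ⟨h, -, e⟩ := hS.exists_cj_le hR.isP le_top
  have h' := hR.cj h
  rw [cj_normalizer] at h'
  exact ⟨h, (cj_mono h hle).trans e, h'.max _ (le_inf e h'.le) inf_le_right hS.isP.to_inf_left ▸ h'⟩

theorem fulln' (hS : IsSylowIn 2 (S ⊓ 𝐍(Y)) 𝐍(Y)) (hP : IsPGroup 2 S) (e : X ^ᶜ g = Y) :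
    ∃ l ∈ 𝐍(Y), (S ⊓ 𝐍(X)) ^ᶜ (l * g) ≤ S := by
  obtain ⟨l, hl, e'⟩ := hS.exists_cj_le (isPGroup_cj (hP.to_inf_left (K := 𝐍(X))) g) (by
    rw [← e, ← cj_normalizer]; exact cj_mono g inf_le_right)
  exact ⟨l, hl, by rw [← cj_cj]; exact e'.trans inf_le_left⟩

theorem nrm_E (rk : PRankLE 2 3 G) (hE : E8 E) (hle : E ≤ S) (hg : g ∈ 𝐍(S ⊓ 𝐂(E))) : g ∈ 𝐍(E) :=
  nrm_of fun k hk => hE.mem_of_cent rk (sq_cj g (hE.sq k hk))
    (conj_mem_of_mem_normalizer hg ⟨hle hk, E8.le_cent hE hk⟩).2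

/-- the centre of `S` has rank two. -/
structure Z4 (S : Subgroup G) (z z' : G) : Prop where
  rk : PRankLE 2 3 G
  syl : IsSylowIn 2 S ⊤
  zS : z ∈ S
  zS' : z' ∈ S
  z2 : z * z = 1
  z2' : z' * z' = 1
  z1 : z ≠ 1
  z1' : z' ≠ 1
  ne : z' ≠ z
  zc : ∀ s ∈ S, s * z * s⁻¹ = z
  zc' : ∀ s ∈ S, s * z' * s⁻¹ = z'
  all : ∀ y ∈ S, y * y = 1 → (∀ s ∈ S, s * y * s⁻¹ = y) → y ∈ zpowers z ⊔ zpowers z'

namespace Z4

variable (h : Z4 S z z')
include h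

theorem cm : z * z' = z' * z := comm_of_cj (h.zc' z h.zS)

theorem mem : y ∈ zpowers z ⊔ zpowers z' ↔ y = 1 ∨ y = z ∨ y = z' ∨ y = z * z' := mem_sp2 h.z2 h.z2' h.cm

theorem cen (hy : y ∈ zpowers z ⊔ zpowers z') {s : G} (hs : s ∈ S) : s * y * s⁻¹ = y := by
  rcases h.mem.1 hy with rfl | rfl | rfl | rfl
  exacts [by simp, h.zc s hs, h.zc' s hs, by rw [cj_mul, h.zc s hs, h.zc' s hs]]

theorem leS : zpowers z ⊔ zpowers z' ≤ S := sup_le (zpowers_le.2 h.zS) (zpowers_le.2 h.zS')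

theorem sq (hy : y ∈ zpowers z ⊔ zpowers z') : y * y = 1 :=
  sq_adj (sq_zpowers h.z2) h.z2' (cent_zpowers h.cm) y hy

variable (hE : E8 E) (hle : E ≤ S)
include hE hle

theorem le : zpowers z ⊔ zpowers z' ≤ E := fun y hy => hE.mem_of_cent h.rk (h.sq hy)
  (mem_centralizer_iff_commute.2 fun s hs => comm_of_cj (h.cen hy (hle hs)))

theorem cos (hu : u ∈ E) (hy : y ∈ E) (h1 : u ∉ zpowers z ⊔ zpowers z') (h2 : y ∉ zpowers z ⊔ zpowers z') :
    u * y ∈ zpowers z ⊔ zpowers z' := by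
  have e := hE.eq_sp3 (h.le hE hle (m2l _ _)) (h.le hE hle (m2r _ _)) hy (by
    rw [h.mem] at h2
    push Not at h2
    exact ⟨h.z1, h.z1', h.ne, h2⟩)
  exact ((mem_adj (hE.sq y hy) (centralizer_anti (h.le hE hle) (E8.le_cent hE hy))).1 (e ▸ hu :)).resolve_left h1

theorem mover : ∃ x ∈ S, x ∈ 𝐍(E) ∧ x ∉ 𝐂(E) := by
  obtain ⟨y, hy, hy'⟩ := SetLike.exists_of_lt (lt_inf_normalizer_of_lt h.syl.isP
    (lt_of_le_of_ne inf_le_left fun e : S ⊓ 𝐂(E) = S => by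
      have := card_le_of_le (show E ≤ zpowers z ⊔ zpowers z' from fun y hy => h.all y (hle hy) (hE.sq y hy)
        fun s hs => conj_eq_of_mem_centralizer (inf_eq_left.1 e hs) hy)
      rw [hE.card, card_sp2 h.z2 h.z2' h.cm h.z1 h.z1' h.ne] at this
      omega))
  exact ⟨y, hy.1, nrm_E h.rk hE hle hy.2, fun e => hy' ⟨hy.1, e⟩⟩

theorem fixZ (hx : x ∈ S) (hc : x ∉ 𝐂(E)) (hu : u ∈ E) (e : x * u * x⁻¹ = u) : u ∈ zpowers z ⊔ zpowers z' := by
  by_contra hn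
  refine hc (mem_centralizer_iff_commute.2 fun y hy => (comm_of_cj ?_).symm)
  by_cases e' : y ∈ zpowers z ⊔ zpowers z'
  · exact h.cen e' hx
  · have := h.cen (h.cos hE hle hu hy hn e') hx
    rw [cj_mul, e] at this
    exact mul_left_cancel this

theorem not_mem (hn : n ∈ 𝐍(zpowers z ⊔ zpowers z')) (hu : u ∉ zpowers z ⊔ zpowers z') :
    n * u * n⁻¹ ∉ zpowers z ⊔ zpowers z' := fun e => hu (by
  simpa [mul_assoc] using conj_mem_of_mem_normalizer' hn e)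

theorem exists_tr (hx : x ∈ S) (hn : x ∈ 𝐍(E)) (hc : x ∉ 𝐂(E)) : ∃ c y v, Tr E x c y v :=
  RG.exists_tr hE hn (mem_centralizer_iff_commute.2 fun y hy => (comm_of_cj (by
    by_cases e : y ∈ zpowers z ⊔ zpowers z'
    · exact h.cen e (mul_mem hx hx)
    have h1 := h.cos hE hle hy (conj_mem_of_mem_normalizer hn hy) e
      (h.not_mem hE hle (nrm_of fun u hu => (h.cen hu hx).symm ▸ hu) e)
    have h2 := h.cen h1 hx
    rw [cj_mul, comm_of_sq hE.sq hy (conj_mem_of_mem_normalizer hn hy)] at h2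
    rw [← mul_left_cancel h2]
    conv_lhs => rw [mul_left_cancel h2]
    group)).symm) hc

theorem nrmZ (e : (S ⊓ 𝐍(E)) ^ᶜ g ≤ S) : g ∈ 𝐍(zpowers z ⊔ zpowers z') := nrm_of fun y hy => by
  obtain ⟨x, hx, hn, hc⟩ := h.mover hE hle
  refine h.fixZ (e8_cj hE g) ((cj_mono g (le_inf hle le_normalizer)).trans e) (e (cj_mem g ⟨hx, hn⟩))
    (by rwa [← cj_centralizer, cj_mem_iff]) (cj_mem g (h.le hE hle hy)) ?_
  conv_rhs => rw [← h.cen hy hx]
  group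

variable (hS : IsSylowIn 2 (S ⊓ 𝐍(E)) 𝐍(E))
include hS

theorem two_cent (hn : n ∈ 𝐍(E)) (hZ : n ∈ 𝐍(zpowers z ⊔ zpowers z')) (hp : IsPGroup 2 (zpowers n)) :
    n ∈ 𝐂(zpowers z ⊔ zpowers z') := by
  obtain ⟨k, hk, e⟩ := (hS.mono (K := 𝐍(E) ⊓ 𝐍(zpowers z ⊔ zpowers z'))
    (fun s hs => ⟨hs.2, nrm_of fun u hu => (h.cen hu hs.1).symm ▸ hu⟩) inf_le_left).exists_cj_le hp
    (zpowers_le.2 ⟨hn, hZ⟩)
  refine mem_centralizer_iff_commute.2 fun y hy => (comm_of_cj ?_).symm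
  have := h.cen (conj_mem_of_mem_normalizer hk.2 hy) (e (cj_mem k (mem_zpowers n))).1
  calc _ = k⁻¹ * (k * n * k⁻¹ * (k * y * k⁻¹) * (k * n * k⁻¹)⁻¹) * k := by group
    _ = y := by rw [this]; group

theorem sq_cent (hn : n ∈ 𝐍(E)) (hZ : n ∈ 𝐍(zpowers z ⊔ zpowers z')) (h2 : n * n ∈ 𝐂(zpowers z ⊔ zpowers z')) :
    n ∈ 𝐂(zpowers z ⊔ zpowers z') := by
  obtain ⟨k, hk⟩ := H45.NE8.exists_odd_part n
  refine H45.NE8.mem_of_sq_of_odd hk (h.two_cent hE hle hS (pow_mem hn _) (pow_mem hZ _) ?_) h2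
  refine IsPGroup.of_card_dvd_pow (n := k) ?_
  rw [Nat.card_zpowers]
  exact orderOf_dvd_of_pow_eq_one (by rw [← pow_mul, mul_comm, pow_mul, pow_orderOf_eq_one])

theorem nrm_of_c (hx : x ∈ S) (tr : Tr E x c y v) (hn : n ∈ 𝐍(E)) (e : n * c * n⁻¹ ∈ zpowers z ⊔ zpowers z') :
    n ∈ 𝐍(zpowers z ⊔ zpowers z') := by
  have tr' := tr.cj n
  rw [cj_eq_of_mem_normalizer hn] at tr'
  have := h.two_cent hE hle hS tr'.nrm (nrm_of fun u hu => by
    rcases tr'.act' (h.le hE hle hu) with e' | e' <;> rw [e']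
    exacts [hu, mul_mem hu e]) (by
    rw [← cj_zpowers]; exact isPGroup_cj (h.syl.isP.to_le (zpowers_le.2 hx)) n)
  refine (inv_mem_iff (x := n)).1 (nrm_of fun u hu => h.fixZ hE hle hx tr.not_cent
    (conj_mem_of_mem_normalizer (inv_mem hn) (h.le hE hle hu)) ?_)
  conv_rhs => rw [← conj_eq_of_mem_centralizer this hu]
  group

theorem fx (gd : Gd S E a c w x m) : FX E a := by
  have Z := fun u (hu : u ∈ E) => h.fixZ hE hle gd.xS gd.tr.not_cent hu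
  have cZ := Z _ gd.tr.cX gd.tr.tc
  have aZ := Z _ gd.tr.yX gd.tr.ty
  have U := fun n (hn : n ∈ 𝐍(E)) => h.nrm_of_c hE hle hS gd.xS gd.tr hn
  have cas : ∀ u ∈ zpowers z ⊔ zpowers z', u = 1 ∨ u = c ∨ u = a ∨ u = c * a := fun u hu =>
    gd.tr.fix (h.le hE hle hu) (h.cen hu gd.xS)
  have mN := gd.tr'.nrm
  have mZ : m ∉ 𝐍(zpowers z ⊔ zpowers z') := fun e => gd.tr.not_fix (h.cen (by
    simpa [gd.tr'.tv] using mul_mem (inv_mem cZ) (conj_mem_of_mem_normalizer e cZ)) gd.xS)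
  have s0 : ∀ n ∈ 𝐍(E), n * c * n⁻¹ ≠ a := fun n hn e => mZ (by
    have := U _ (mul_mem mN hn) (by
      rw [show m * n * c * (m * n)⁻¹ = m * (n * c * n⁻¹) * m⁻¹ by group, e, gd.tr'.ty]; exact aZ)
    simpa using mul_mem this (inv_mem (U n hn (e ▸ aZ))))
  have s1 : ∀ n ∈ 𝐍(E), n * c * n⁻¹ ∈ zpowers z ⊔ zpowers z' → n * c * n⁻¹ = c ∧ n * a * n⁻¹ = a := by
    intro n hn e
    have nZ := U n hn e
    have key : n * n * c * (n * n)⁻¹ = c → n * n * a * (n * n)⁻¹ = a → n * c * n⁻¹ = c ∧ n * a * n⁻¹ = a :=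
      fun e1 e2 => by
        have := h.sq_cent hE hle hS hn nZ (mem_centralizer_iff_commute.2 fun u hu => (comm_of_cj (by
          rcases cas u hu with rfl | rfl | rfl | rfl
          exacts [by simp, e1, e2, by rw [cj_mul, e1, e2]])).symm)
        exact ⟨conj_eq_of_mem_centralizer this cZ, conj_eq_of_mem_centralizer this aZ⟩
    have nn : ∀ u : G, n * n * u * (n * n)⁻¹ = n * (n * u * n⁻¹) * n⁻¹ := fun u => by group
    rcases cas _ e with e1 | e1 | e1 | e1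
    · exact absurd (by simpa using e1) gd.tr.c1
    · rcases cas _ (conj_mem_of_mem_normalizer nZ aZ) with e2 | e2 | e2 | e2
      · exact absurd (by simpa using e2) gd.tr.y1
      · exact absurd (by simpa using e2.trans e1.symm) gd.tr.yc
      · exact ⟨e1, e2⟩
      · exact key (by rw [nn, e1, e1]) (by rw [nn, e2, cj_mul, e1, e2, ← mul_assoc, gd.tr.c2, one_mul])
    · exact absurd e1 (s0 n hn)
    · rcases cas _ (conj_mem_of_mem_normalizer nZ aZ) with e2 | e2 | e2 | e2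
      · exact absurd (by simpa using e2) gd.tr.y1
      · exact absurd (by rw [← e2]; group) (s0 _ (inv_mem hn))
      · exact key (by rw [nn, e1, cj_mul, e1, e2, mul_assoc, gd.tr.y2, mul_one]) (by rw [nn, e2, e2])
      · exact absurd (by simpa using e2.trans e1.symm) gd.tr.yc
  have s2 : ∀ n ∈ 𝐍(E), n * c * n⁻¹ = c * w → n * a * n⁻¹ = a := fun n hn e => by
    have := (s1 _ (mul_mem (inv_mem mN) hn) (by
      rw [show m⁻¹ * n * c * (m⁻¹ * n)⁻¹ = m⁻¹ * (n * c * n⁻¹) * m by group, e, ← gd.tr'.tv]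
      simpa [mul_assoc] using cZ)).2
    calc _ = m * (m⁻¹ * n * a * (m⁻¹ * n)⁻¹) * m⁻¹ := by group
      _ = a := by rw [this, gd.tr'.ty]
  have s3 : ∀ n ∈ 𝐍(E), n * c * n⁻¹ ≠ c * a * w := fun n hn e => by
    have e1 : m * n * c * (m * n)⁻¹ = c * a := by
      rw [show m * n * c * (m * n)⁻¹ = m * (n * c * n⁻¹) * m⁻¹ by group, e, cj_mul, cj_mul, gd.tr'.tv, gd.tr'.ty,
        gd.tr'.tc, mul_assoc c, gd.tr.cm gd.tr.vX gd.tr.yX, ← mul_assoc, mul_assoc, gd.tr.v2, mul_one]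
    have := (s1 _ (mul_mem mN hn) (e1 ▸ mul_mem cZ aZ)).1
    exact gd.tr.y1 (by simpa using e1.symm.trans this)
  have xn : ∀ n u : G, x * n * u * (x * n)⁻¹ = x * (n * u * n⁻¹) * x⁻¹ := fun n u => by group
  intro n hn
  have hxn := mul_mem gd.tr.nrm hn
  rcases hE.cases gd.tr.cX gd.tr.yX gd.tr.vX gd.tr.ind (conj_mem_of_mem_normalizer hn gd.tr.cX) with
    e | e | e | e | e | e | e | e
  · exact (s1 n hn (e ▸ one_mem _)).2
  · exact (s1 n hn (e.symm ▸ cZ)).2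
  · exact (s1 n hn (e.symm ▸ aZ)).2
  · exact (s1 n hn (e.symm ▸ mul_mem cZ aZ)).2
  · have := s2 _ hxn (by rw [xn, e, gd.tr.tv, gd.tr.cm gd.tr.vX gd.tr.cX])
    rw [xn] at this
    simpa using this.trans gd.tr.ty.symm
  · exact s2 n hn e
  · refine absurd ?_ (s3 _ hxn)
    rw [xn, e, cj_mul, gd.tr.ty, gd.tr.tv, ← mul_assoc, gd.tr.cm (mul_mem gd.tr.yX gd.tr.vX) gd.tr.cX, mul_assoc]
  · exact absurd e (s3 n hn)

omit hE hle hS

theorem exists_gd (ht : t ∈ S) (t2 : t * t = 1) (hn : t ∉ zpowers z ⊔ zpowers z')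
    (hg : g * t * g⁻¹ ∈ zpowers z ⊔ zpowers z') :
    ∃ Y a c w x m, Gd S Y a c w x m ∧ FX Y a ∧ a ∈ zpowers z ⊔ zpowers z' ∧
      ∃ u ∈ zpowers z ⊔ zpowers z', IsConj t u ∧ u ≠ a := by
  have hE : E8 (sp3 z z' t) := e8_sp3 h.z2 h.z2' t2 h.cm (comm_of_cj (h.zc t ht)).symm
    (comm_of_cj (h.zc' t ht)).symm (by
      rw [h.mem] at hn
      push Not at hn
      exact ⟨h.z1, h.z1', h.ne, hn⟩)
  have hle : sp3 z z' t ≤ S := sup_le h.leS (zpowers_le.2 ht)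
  have tE := m33 z z' t
  generalize sp3 z z' t = E at hE hle tE
  obtain ⟨k, ek, hk⟩ := H45.NE8.ext_central h.syl (fun s hs => mcs.2 (h.cen hg hs)) rfl (isP_of_sq hE.sq)
    fun s hs => mcs.2 (E8.cj hE hs tE)
  obtain ⟨f, f1, hS⟩ := fulln h.syl E
  obtain ⟨l, hl, f2⟩ := fulln' (X := E ^ᶜ k) (g := f * k⁻¹) hS h.syl.isP (by rw [cj_cj, inv_mul_cancel_right])
  have n1 := h.nrmZ hE hle f1
  have n2 := h.nrmZ (e8_cj hE k) hk f2
  have hY := e8_cj hE f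
  have hle' : E ^ᶜ f ≤ S := (cj_mono f (le_inf hle le_normalizer)).trans f1
  have t1 := h.not_mem hE hle n1 hn
  have t3 := conj_mem_of_mem_normalizer n2 hg
  have el : l * (f * t * f⁻¹) * l⁻¹ = l * (f * k⁻¹) * (g * t * g⁻¹) * (l * (f * k⁻¹))⁻¹ := by rw [← ek]; group
  rw [← el] at t3
  have ct : IsConj t (l * (f * t * f⁻¹) * l⁻¹) := isConj_iff.2 ⟨l * f, by group⟩
  generalize f * t * f⁻¹ = t' at t1 t3 ct
  generalize E ^ᶜ f = Y at hS hl hY hle'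
  have lZ : l ∉ 𝐍(zpowers z ⊔ zpowers z') := fun e => h.not_mem hY hle' e t1 t3
  have mv : ∀ {x c y v : G}, x ∈ S → Tr Y x c y v → ∀ n ∈ 𝐍(Y), n ∉ 𝐍(zpowers z ⊔ zpowers z') →
      n * c * n⁻¹ ∉ zpowers z ⊔ zpowers z' := fun hx tr n hn e e' => e (h.nrm_of_c hY hle' hS hx tr hn e')
  obtain ⟨x, hx, xN, xC⟩ := h.mover hY hle'
  obtain ⟨c, y, v, tr⟩ := h.exists_tr hY hle' hx xN xC
  have Z := fun u (hu : u ∈ Y) => h.fixZ hY hle' hx xC hu
  obtain ⟨a, tr1, tr2⟩ := tr.pair hl (fun e => mv hx tr l hl lZ (Z _ (conj_mem_of_mem_normalizer hl tr.cX) e))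
    fun e => mv hx tr _ (inv_mem hl) (mt inv_mem_iff.1 lZ) (by
      rw [inv_inv]; exact Z _ (conj_mem_of_mem_normalizer' hl tr.cX) e)
  have hT : IsSylowIn 2 (S ⊓ 𝐂(Y)) 𝐂(Y) := by
    have := hS.inf_normal (centralizer_le_normalizer _) (H69.normalizer_le_normalizer_centralizer Y)
    rwa [inf_assoc, inf_eq_right.2 (centralizer_le_normalizer _)] at this
  obtain ⟨q, hq, m, hm, e⟩ := hT.frattini (H69.normalizer_le_normalizer_centralizer Y tr2.nrm)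
  have tr3 := tr2.mul (inv_mem hq)
  rw [e, inv_mul_cancel_left] at tr3
  have gd : Gd S Y a c (l * c * l⁻¹) x m := ⟨h.rk, h.syl.isP, hle', hx, tr1, tr3, hm, fun s hs sN => by
    by_contra! hc
    obtain ⟨c', y', v', tr'⟩ := h.exists_tr hY hle' hs sN hc.1
    obtain ⟨c'', y'', v'', tr''⟩ := h.exists_tr hY hle' (mul_mem hs hx) (mul_mem sN xN) hc.2
    have wZ := mv hx tr l hl lZ
    have e1 := tr'.mv tr1.vX fun e => wZ (h.fixZ hY hle' hs hc.1 tr1.vX e)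
    have e2 := tr''.mv tr1.vX fun e => wZ (h.fixZ hY hle' (mul_mem hs hx) hc.2 tr1.vX e)
    rw [show s * x * (l * c * l⁻¹) * (s * x)⁻¹ = s * (x * (l * c * l⁻¹) * x⁻¹) * s⁻¹ by group, tr1.tv, cj_mul, e1,
      h.cen (Z _ tr.cX tr.tc) hs, mul_assoc] at e2
    refine mv (mul_mem hs hx) tr'' l hl lZ ?_
    rw [← mul_left_cancel e2, cj_mul]
    exact h.cos hY hle' (conj_mem_of_mem_normalizer hl tr'.cX) tr1.vX (mv hs tr' l hl lZ) wZ⟩
  have fx := h.fx hY hle' hS gd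
  refine ⟨_, _, _, _, _, _, gd, fx, Z _ tr1.yX tr1.ty, _, t3, ct, fun e => t1 ?_⟩
  have := fx l hl
  rw [← e, mul_left_inj, mul_right_inj] at this
  rwa [this] at t3

theorem false (F : H45.NE8.Fu G) (nsc : NSC S) : False := by
  obtain ⟨u, hu, g, h1, h2⟩ := nsc.exists h.leS (fun e => h.z1 (mem_bot.1 (e ▸ m2l z z'))) fun _ => h.sq
  obtain ⟨Y, a, c, w, x, m, gd, fx, aZ, -⟩ := h.exists_gd (g := g⁻¹) h1 (sq_cj g (h.sq hu)) h2 (by
    simpa [mul_assoc] using hu)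
  have za := fun s (hs : s ∈ S) => h.cen aZ hs
  by_cases e : ∀ k ∈ 𝐍(S), k * a * k⁻¹ = a
  · have nf : ∀ u ∈ zpowers z ⊔ zpowers z', IsConj a u → u = a := fun u hu e' => by
      obtain ⟨g, e'⟩ := isConj_iff.1 e'
      obtain ⟨k, hk, e'⟩ := H45.NE8.burn1 h.syl (fun s hs => mcs.2 (za s hs)) (fun s hs => mcs.2 (h.cen hu hs)) e'
      rw [← e', e k hk]
    obtain ⟨g, h1, h2⟩ := F.exists_conj h.syl (orderOf_two gd.tr.y2 gd.tr.y1)
    have cj : IsConj a (g * a * g⁻¹) := isConj_iff.2 ⟨g, rfl⟩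
    obtain ⟨Y', a', c', w', x', m', gd', fx', aZ', u, hu, e1, e2⟩ := h.exists_gd (g := g⁻¹) h1
      (sq_cj g gd.tr.y2) (fun e => h2 (nf _ e cj)) (by simpa [mul_assoc] using aZ)
    exact gd.z4 gd' fx fx' (fun e => e2 ((nf u hu (cj.trans e1)).trans e.symm)) F h.syl za fun s hs => h.cen aZ' hs
  · push Not at e
    obtain ⟨k, hk, e⟩ := e
    refine gd.z4 (gd.cj hk) fx (fx.cj k) e F h.syl za fun s hs => ?_
    conv_rhs => rw [← za _ (conj_mem_of_mem_normalizer' hk hs)]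
    group

end Z4

end H22.RG
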