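import Mathlib
import Cfsg.Agent.Base
import Cfsg.Agent.Lib.Rk3G.Z4

/-! Groups of 2-rank 3 with cyclic centre of a Sylow 2-subgroup: the fused normal four-group. -/

set_option autoImplicit false
set_option linter.unusedSectionVars false
set_option linter.unusedVariables false

namespace H22.RG

open Subgroup H69 H70 Cfsg H22.RK
open scoped commutatorElement Pointwise

variable {G : Type*} [Group G] [Finite G] {S Y E : Subgroup G} {a c w x m g k u y v z t n : G}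

theorem card_lt' {A B : Subgroup G} (h : A < B) : Nat.card A < Nat.card B :=
  lt_of_not_ge fun e => h.ne (Subgroup.eq_of_le_of_card_ge h.le e)

/-- the centre of `S` is cyclic. -/
structure Z2 (S : Subgroup G) (z : G) : Prop where
  rk : PRankLE 2 3 G
  syl : IsSylowIn 2 S ⊤
  zS : z ∈ S
  z2 : z * z = 1
  z1 : z ≠ 1
  zc : ∀ s ∈ S, s * z * s⁻¹ = z
  uniq : ∀ y ∈ S, y * y = 1 → (∀ s ∈ S, s * y * s⁻¹ = y) → y = 1 ∨ y = z

/-- a conjugate `t` of `z` with maximal centraliser, fused to `z` in the normaliser of the centraliser. -/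
structure Mx (S : Subgroup G) (z t n : G) : Prop extends Z2 S z where
  tS : t ∈ S
  tz : t ≠ z
  nN : n ∈ 𝐍(S ⊓ centralizer {t})
  nz : n * z * n⁻¹ = t
  mx : ∀ u ∈ S, u ≠ z → IsConj z u → S ⊓ centralizer {t} ≤ centralizer {u} → ∀ g ∈ S, g * u * g⁻¹ = u →
    g * t * g⁻¹ = t

theorem Z2.lt (h : Z2 S z) (ht : t ∈ S) (tz : t ≠ z) (e : IsConj z t) : S ⊓ centralizer {t} < S := by
  obtain ⟨g, rfl⟩ := isConj_iff.1 e
  exact lt_of_le_of_ne inf_le_left fun e => (h.uniq _ ht (sq_cj g h.z2) fun s hs =>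
    mcs.1 (inf_eq_left.1 e hs)).elim (fun e => h.z1 (by simpa using e)) tz

theorem Z2.exists_mx (h : Z2 S z) (F : H45.NE8.Fu G) : ∃ t n, Mx S z t n := by
  obtain ⟨g0, h1, h2⟩ := F.exists_conj h.syl (orderOf_two h.z2 h.z1)
  obtain ⟨t0, ⟨tS, tz, tc⟩, hmax⟩ := (Set.toFinite {t | t ∈ S ∧ t ≠ z ∧ IsConj z t}).exists_maximalFor
    (fun t => Nat.card (S ⊓ centralizer {t} : Subgroup G)) _ ⟨_, h1, h2, isConj_iff.2 ⟨g0, rfl⟩⟩
  have mx : ∀ u ∈ S, u ≠ z → IsConj z u → Nat.card (S ⊓ centralizer {u} : Subgroup G) ≤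
      Nat.card (S ⊓ centralizer {t0} : Subgroup G) := fun u h1 h2 h3 =>
    le_of_not_gt fun e => absurd e (not_lt.2 (hmax (j := u) ⟨h1, h2, h3⟩ e.le))
  have eq : ∀ u ∈ S, u ≠ z → IsConj z u → ∀ g : G, (S ⊓ centralizer {t0}) ^ᶜ g ≤ S ⊓ centralizer {u} →
      (S ⊓ centralizer {t0}) ^ᶜ g = S ⊓ centralizer {u} := fun u h1 h2 h3 g e =>
    Subgroup.eq_of_le_of_card_ge e (by rw [card_cj]; exact mx u h1 h2 h3)
  have zf : ∀ g f : G, (S ⊓ centralizer {t0}) ^ᶜ g < S → (S ⊓ 𝐍((S ⊓ centralizer {t0}) ^ᶜ g)) ^ᶜ f ≤ S →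
      f * z * f⁻¹ = z := fun g f lt e => by
    by_contra hne
    have zN : z ∈ S ⊓ 𝐍((S ⊓ centralizer {t0}) ^ᶜ g) :=
      ⟨h.zS, nrm_of fun x hx => (cj_symm (h.zc x (lt.le hx))).symm ▸ hx⟩
    have h1 := mx _ (e (cj_mem f zN)) hne (isConj_iff.2 ⟨f, rfl⟩)
    have h2 := card_le_of_le (show (S ⊓ 𝐍((S ⊓ centralizer {t0}) ^ᶜ g)) ^ᶜ f ≤ S ⊓ centralizer {f * z * f⁻¹} from
      le_inf e (by
        rw [← cj_centralizer_singleton]
        exact cj_mono f fun x hx => mcs.2 (h.zc x hx.1)))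
    have h3 := card_lt' (lt_inf_normalizer_of_lt h.syl.isP lt)
    rw [card_cj] at h2 h3
    omega
  have lt0 := h.lt tS tz tc
  have t0T : t0 ∈ S ⊓ centralizer {t0} := ⟨tS, mcs.2 (by group)⟩
  have zT : z ∈ S ⊓ centralizer {t0} := ⟨h.zS, mcs.2 (cj_symm (h.zc _ tS))⟩
  obtain ⟨f, f1, hS⟩ := fulln h.syl (S ⊓ centralizer {t0})
  have fz := zf 1 f (by rwa [cj_one]) (by rwa [cj_one])
  have f2 := (cj_mono f (le_inf inf_le_left le_normalizer)).trans f1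
  have n1 : f * t0 * f⁻¹ ≠ z := fun e => tz (by simpa using e.trans fz.symm)
  have c1 : IsConj z (f * t0 * f⁻¹) := tc.trans (isConj_iff.2 ⟨f, rfl⟩)
  have e1 := eq _ (f2 (cj_mem f t0T)) n1 c1 f (le_inf f2 (by
    rw [← cj_centralizer_singleton]; exact cj_mono f inf_le_right))
  obtain ⟨g, eg⟩ := isConj_iff.1 tc.symm
  obtain ⟨k, ek, hk⟩ := H45.NE8.ext_central h.syl (fun s hs => mcs.2 (h.zc s hs)) eg
    (R := S ⊓ centralizer {t0}) h.syl.isP.to_inf_left inf_le_right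
  have n2 : k * z * k⁻¹ ≠ z := fun e => tz (by simpa using ek.trans e.symm)
  have e2 := eq _ (hk (cj_mem k zT)) n2 (isConj_iff.2 ⟨k, rfl⟩) k (le_inf hk (by
    rw [← cj_centralizer_singleton]; exact cj_mono k fun x hx => mcs.2 (h.zc x hx.1)))
  obtain ⟨l, hl, f3⟩ := fulln' (X := (S ⊓ centralizer {t0}) ^ᶜ k) (g := f * k⁻¹) hS h.syl.isP (by
    rw [cj_cj, inv_mul_cancel_right])
  have e3 := zf k _ (e2 ▸ h.lt (hk (cj_mem k zT)) n2 (isConj_iff.2 ⟨k, rfl⟩)) f3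
  refine ⟨f * t0 * f⁻¹, l⁻¹, h, f2 (cj_mem f t0T), n1, e1 ▸ inv_mem hl, ?_, fun u h1 h2 h3 h4 s hs e => ?_⟩
  · conv_lhs => rw [← e3, ← ek]
    group
  · rw [← e1] at h4
    have := eq u h1 h2 h3 f (le_inf f2 h4)
    exact mcs.1 (e1.symm.trans this ▸ (⟨hs, mcs.2 e⟩ : s ∈ S ⊓ centralizer {u}) : s ∈ S ⊓ centralizer {_}).2

namespace Mx

variable (h : Mx S z t n)
include h

theorem t2 : t * t = 1 := h.nz ▸ sq_cj n h.z2

theorem t1 : t ≠ 1 := fun e => h.z1 (by simpa [e] using h.nz)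

theorem cm : z * t = t * z := (comm_of_cj (h.zc t h.tS)).symm

theorem zT : z ∈ S ⊓ centralizer {t} := ⟨h.zS, mcs.2 (cj_of_comm h.cm)⟩

theorem tT : t ∈ S ⊓ centralizer {t} := ⟨h.tS, mcs.2 (by group)⟩

theorem lt : S ⊓ centralizer {t} < S := h.toZ2.lt h.tS h.tz (isConj_iff.2 ⟨n, h.nz⟩)

theorem cen (hk : k ∈ 𝐍(S ⊓ centralizer {t})) (hy : ∀ s ∈ S ⊓ centralizer {t}, s * y * s⁻¹ = y) :
    ∀ s ∈ S ⊓ centralizer {t}, s * (k * y * k⁻¹) * s⁻¹ = k * y * k⁻¹ := fun s hs => by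
  conv_rhs => rw [← hy _ (conj_mem_of_mem_normalizer' hk hs)]
  group

theorem small (F : H45.NE8.Fu G) (hy : y ∈ S ⊓ centralizer {t}) (y2 : y * y = 1)
    (hc : ∀ s ∈ S ⊓ centralizer {t}, s * y * s⁻¹ = y) : y ∈ zpowers z ⊔ zpowers t := by
  by_contra hn
  have hY : E8 (sp3 z t y) := e8_sp3 h.z2 h.t2 y2 h.cm (comm_of_cj (h.zc y hy.1)).symm
    (comm_of_cj (mcs.1 hy.2)).symm (by
      rw [mem_sp2 h.z2 h.t2 h.cm] at hn
      push Not at hn
      exact ⟨h.z1, h.t1, h.tz, hn⟩)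
  have hle : sp3 z t y ≤ S := sup_le (sup_le (zpowers_le.2 h.zS) (zpowers_le.2 h.tS)) (zpowers_le.2 hy.1)
  have zY := m31 z t y
  have tY := m32 z t y
  have eT : S ⊓ 𝐂(sp3 z t y) = S ⊓ centralizer {t} := le_antisymm
    (fun s hs => ⟨hs.1, mcs.2 (conj_eq_of_mem_centralizer hs.2 tY)⟩)
    fun s hs => ⟨hs.1, cent3 (h.zc s hs.1) (mcs.1 hs.2) (hc s hs)⟩
  generalize sp3 z t y = Y at hY hle zY tY eT
  have nY : ∀ k ∈ 𝐍(S ⊓ centralizer {t}), k ∈ 𝐍(Y) := fun k hk => nrm_E h.rk hY hle (eT ▸ hk)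
  have nT : ∀ g ∈ S, g ∈ 𝐍(Y) → g ∈ 𝐍(S ⊓ centralizer {t}) := fun g hg hn => eT ▸ H69.le_normalizer_inf
    (L := S ⊓ 𝐍(Y)) (inf_le_left.trans le_normalizer) (H69.le_normalizer_centralizer inf_le_right) ⟨hg, hn⟩
  have cY : ∀ g ∈ S, g * t * g⁻¹ = t → g ∈ 𝐂(Y) := fun g hg e =>
    (eT.symm ▸ (⟨hg, mcs.2 e⟩ : g ∈ S ⊓ centralizer {t}) : g ∈ S ⊓ 𝐂(Y)).2
  have mxY : ∀ u ∈ Y, u ≠ z → IsConj z u → ∀ g ∈ S, g * u * g⁻¹ = u → g * t * g⁻¹ = t := fun u hu h1 h2 =>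
    h.mx u (hle hu) h1 h2 fun s hs => mcs.2 (conj_eq_of_mem_centralizer (cY s hs.1 (mcs.1 hs.2)) hu)
  obtain ⟨x0, hx0, hx0'⟩ := SetLike.exists_of_lt (lt_inf_normalizer_of_lt h.syl.isP h.lt)
  obtain ⟨j, hj⟩ := H69.isPGroup_iff_mem.1 h.syl.isP x0 hx0.1
  obtain ⟨i, h1, h2⟩ := exists_pow_sq (K := S ⊓ centralizer {t}) (hj ▸ one_mem _) hx0'
  obtain ⟨xS, xN⟩ := pow_mem hx0 i
  generalize x0 ^ i = x at h1 h2 xS xN
  have xt : x * t * x⁻¹ ≠ t := fun e => h1 ⟨xS, mcs.2 e⟩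
  obtain ⟨c, y', v, tr⟩ := exists_tr hY (nY x xN) (cY _ h2.1 (mcs.1 h2.2)) fun e =>
    xt (conj_eq_of_mem_centralizer e tY)
  let O : G → Prop := fun u => ∃ k ∈ 𝐍(S ⊓ centralizer {t}), k * z * k⁻¹ = u
  have OY : ∀ u, O u → u ∈ Y := by rintro _ ⟨k, hk, rfl⟩; exact conj_mem_of_mem_normalizer (nY k hk) zY
  have Oc : ∀ u, O u → ∀ k ∈ 𝐍(S ⊓ centralizer {t}), O (k * u * k⁻¹) := by
    rintro _ ⟨k, hk, rfl⟩ k' hk'
    exact ⟨k' * k, mul_mem hk' hk, by group⟩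
  have Om : ∀ u, O u → u ≠ z → x * u * x⁻¹ ≠ u := fun u hu h1 e => by
    obtain ⟨k, -, ek⟩ := id hu
    exact xt (mxY u (OY u hu) h1 (isConj_iff.2 ⟨k, ek⟩) x xS e)
  have Oz : O z := ⟨1, one_mem _, by simp⟩
  have Ot : O t := ⟨n, h.nN, h.nz⟩
  have Ox : ∀ u, O u → u ≠ z → O (u * c) := fun u hu h1 => tr.mv (OY u hu) (Om u hu h1) ▸ Oc u hu x xN
  have xz := h.zc x xS
  have O3 : ∀ u, O u → u = z ∨ u = t ∨ u = t * c := fun u hu => by
    by_contra! hc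
    have uY := OY u hu
    have tr' := (tr.chg (mul_mem tY uY) (tr.fix_mul tY uY xt (Om u hu hc.1))
      (fun e => hc.2.1 (by rw [eq_inv_of_mul_eq_one_right e, inv_of_sq h.t2]))
      fun e => hc.2.2 (by rw [← e, ← mul_assoc, h.t2, one_mul])).chv tY xt
    have all : ∀ q ∈ Y, x * q * x⁻¹ ≠ q → O q := fun q hq e => by
      have e1 : t * u * t = u := by rw [tr.cm tY uY, mul_assoc, h.t2, mul_one]
      rcases hY.cases tr'.cX tr'.yX tr'.vX tr'.ind hq with rfl | rfl | rfl | rfl | rfl | rfl | rfl | rfl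
      · exact absurd (by simp) e
      · exact absurd tr'.tc e
      · exact absurd tr'.ty e
      · exact absurd tr'.tw e
      · exact Ot
      · exact tr.cm tY tr.cX ▸ Ox _ Ot h.tz
      · exact e1.symm ▸ hu
      · rw [mul_assoc, e1, ← tr.cm uY tr.cX]
        exact Ox _ hu hc.1
    have fx : ∀ q ∈ Y, x * q * x⁻¹ = q → q ≠ z → x * (n * q * n⁻¹) * x⁻¹ = n * q * n⁻¹ := fun q hq e h1 => by
      by_contra e'
      have := Oc _ (all _ (conj_mem_of_mem_normalizer (nY n h.nN) hq) e') _ (inv_mem h.nN)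
      rw [show n⁻¹ * (n * q * n⁻¹) * n⁻¹⁻¹ = q by group] at this
      exact Om q this h1 e
    obtain ⟨q, hq, e, q1, qz⟩ : ∃ q ∈ Y, x * q * x⁻¹ = q ∧ q ≠ 1 ∧ q ≠ z := by
      by_cases e : c = z
      exacts [⟨_, tr.yX, tr.ty, tr.y1, e ▸ tr.yc⟩, ⟨_, tr.cX, tr.tc, tr.c1, e⟩]
    refine xt ?_
    rw [← h.nz, show z = q * (q * z) by rw [← mul_assoc, hY.sq q hq, one_mul], cj_mul n, cj_mul, fx q hq e qz,
      fx _ (mul_mem hq zY) (by rw [cj_mul, e, xz]) (by simpa using q1)]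
  have tcz : t * c ≠ z := fun e => xt (by
    have := xz
    rw [← e, cj_mul, tr.tc] at this
    exact mul_right_cancel this)
  have al : ∀ k ∈ 𝐍(S ⊓ centralizer {t}), k * z * k⁻¹ ≠ z → x * (k * c * k⁻¹) * x⁻¹ ≠ k * c * k⁻¹ := by
    intro k hk kz e
    rw [show c = t * (t * c) by rw [← mul_assoc, h.t2, one_mul], cj_mul k, cj_mul] at e
    have d1 : k * t * k⁻¹ ≠ k * z * k⁻¹ := by simpa using h.tz
    have d2 : k * (t * c) * k⁻¹ ≠ k * z * k⁻¹ := by simpa using tcz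
    have d3 : k * (t * c) * k⁻¹ ≠ k * t * k⁻¹ := by simpa using tr.c1
    have o1 := Oc _ Ot k hk
    have o2 := Oc _ (Ox _ Ot h.tz) k hk
    by_cases e1 : k * t * k⁻¹ = z
    · rw [e1, xz] at e
      exact Om _ o2 (e1 ▸ d3) (mul_left_cancel e)
    by_cases e2 : k * (t * c) * k⁻¹ = z
    · rw [e2, xz] at e
      exact Om _ o1 e1 (mul_right_cancel e)
    rcases (O3 _ (Oc _ Oz k hk)).resolve_left kz with e0 | e0 <;>
      rcases (O3 _ o1).resolve_left e1 with e1 | e1 <;> rcases (O3 _ o2).resolve_left e2 with e2 | e2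
    all_goals first | exact d1 (e1.trans e0.symm) | exact d2 (e2.trans e0.symm) | exact d3 (e2.trans e1.symm)
  obtain ⟨a, tr1, tr2⟩ := tr.pair (nY n h.nN) (al n h.nN (h.nz ▸ h.tz)) (by
    have := al _ (inv_mem h.nN) fun e => h.tz (by rw [← h.nz]; conv_lhs => rw [← e]
                                                  group)
    rwa [inv_inv] at this)
  have gd : Gd S Y a c (n * c * n⁻¹) x (n * x * n⁻¹) := ⟨h.rk, h.syl.isP, hle, xS, tr1, tr2,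
    eT ▸ mul_mem (mul_mem h.nN xN) (inv_mem h.nN), fun g hg gN => by
      have gz := h.zc g hg
      rcases O3 _ (Oc _ Ot g (nT g hg gN)) with e | e | e
      · exact absurd (by simpa using e.trans gz.symm) h.tz
      · exact .inl (cY g hg e)
      · refine .inr (cY _ (mul_mem hg xS) ?_)
        rw [show g * x * t * (g * x)⁻¹ = g * (x * t * x⁻¹) * g⁻¹ by group, tr.mv tY xt]
        rcases O3 _ (Oc _ (Ox _ Ot h.tz) g (nT g hg gN)) with e' | e' | e'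
        · exact absurd (by simpa using e'.trans gz.symm) tcz
        · exact e'
        · exact absurd (by simpa using e'.trans e.symm) tr.c1⟩
  obtain rfl := (h.uniq c (hle tr.cX) tr.c2 fun s hs => gd.c_cen hs).resolve_left tr.c1
  exact xt (mxY a tr1.yX tr1.yc (gd.z2 F h.syl h.uniq).symm x xS tr1.ty)

end Mx

end H22.RG
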