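import Mathlib
import Cfsg.Agent.Base
import Cfsg.Agent.Lib.Rk3G.Z2

/-! Groups of 2-rank 3 without strongly closed abelian 2-subgroup have a fused normal four-group. -/

set_option autoImplicit false
set_option linter.unusedSectionVars false
set_option linter.unusedVariables false

namespace H22.RG

open Subgroup H69 H70 Cfsg H22.RK
open scoped commutatorElement Pointwise

variable {G : Type*} [Group G] [Finite G] {S Y E : Subgroup G} {a c w x m g k u y v z t n : G}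

namespace Mx

variable (h : Mx S z t n) (F : H45.NE8.Fu G)
include h F

theorem cj_t (hk : k ∈ S ⊓ 𝐍(S ⊓ centralizer {t})) : k * t * k⁻¹ = t ∨ k * t * k⁻¹ = z * t := by
  rcases (mem_sp2 h.z2 h.t2 h.cm).1 (h.small F (conj_mem_of_mem_normalizer hk.2 h.tT) (sq_cj k h.t2)
    (h.cen hk.2 fun s hs => mcs.1 hs.2)) with e | e | e
  · exact absurd (by simpa using e) h.t1
  · exact absurd (by simpa using e.trans (h.zc k hk.1).symm) h.tz
  · exact e

theorem normal (hE : E8 E) (hle : E ≤ S) : ∀ s ∈ S, s * t * s⁻¹ = t ∨ s * t * s⁻¹ = z * t := by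
  by_contra hn
  obtain ⟨y, hy, hy'⟩ := SetLike.exists_of_lt (lt_inf_normalizer_of_lt h.syl.isP
    (lt_of_le_of_ne inf_le_left fun e : S ⊓ 𝐍(S ⊓ centralizer {t}) = S =>
      hn fun s hs => h.cj_t F (e.symm ▸ hs :)))
  have TN : S ⊓ centralizer {t} ≤ S ⊓ 𝐍(S ⊓ centralizer {t}) := le_inf inf_le_left le_normalizer
  obtain ⟨s, es⟩ : ∃ s, s = y * t * y⁻¹ := ⟨_, rfl⟩
  have s2 : s * s = 1 := es ▸ sq_cj y h.t2
  have sS : s ∈ S := es ▸ mul_mem (mul_mem hy.1 h.tS) (inv_mem hy.1)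
  have cs : ∀ g ∈ S ⊓ centralizer {t}, g * s * g⁻¹ = s ∨ g * s * g⁻¹ = z * s := fun g hg => by
    have e : g * s * g⁻¹ = y * (y⁻¹ * g * y * t * (y⁻¹ * g * y)⁻¹) * y⁻¹ := by rw [es]; group
    rw [e]
    exact (h.cj_t F (conj_mem_of_mem_normalizer' hy.2 (TN hg))).imp (fun e => by rw [e, es])
      fun e => by rw [e, cj_mul, h.zc y hy.1, es]
  have sU : s ∉ zpowers z ⊔ zpowers t := fun e => hy' ⟨hy.1, nrm_of fun g hg => by
    have gS : y * g * y⁻¹ ∈ S := mul_mem (mul_mem hy.1 hg.1) (inv_mem hy.1)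
    have e1 : y * g * y⁻¹ * s * (y * g * y⁻¹)⁻¹ = s := by
      rw [es]
      conv_rhs => rw [← mcs.1 hg.2]
      group
    refine ⟨gS, mcs.2 ?_⟩
    rcases (mem_sp2 h.z2 h.t2 h.cm).1 e with e | e | e | e
    · exact absurd (by simpa [es] using e) h.t1
    · exact absurd (by simpa [es] using e.trans (h.zc y hy.1).symm) h.tz
    · rwa [e] at e1
    · rw [e, cj_mul, h.zc _ gS] at e1
      exact mul_left_cancel e1⟩
  rcases cs t h.tT with ts | ts
  · have sT : s ∈ S ⊓ centralizer {t} := ⟨sS, mcs.2 (cj_symm ts)⟩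
    have sT' := conj_mem_of_mem_normalizer h.nN sT
    have s2' := sq_cj n s2
    have cs' : ∀ g ∈ S ⊓ centralizer {t}, g * (n * s * n⁻¹) * g⁻¹ = n * s * n⁻¹ ∨
        g * (n * s * n⁻¹) * g⁻¹ = t * (n * s * n⁻¹) := fun g hg => by
      have e : g * (n * s * n⁻¹) * g⁻¹ = n * (n⁻¹ * g * n * s * (n⁻¹ * g * n)⁻¹) * n⁻¹ := by group
      rw [e]
      exact (cs _ (conj_mem_of_mem_normalizer' h.nN hg)).imp (fun e => by rw [e]) fun e => by rw [e, cj_mul, h.nz]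
    have back : (∀ g ∈ S ⊓ centralizer {t}, g * (n * s * n⁻¹) * g⁻¹ = n * s * n⁻¹) →
        ∀ g ∈ S ⊓ centralizer {t}, g * s * g⁻¹ = s := fun e => by
      simpa [mul_assoc] using h.cen (inv_mem h.nN) e
    generalize n * s * n⁻¹ = s' at sT' s2' cs' back
    have fU : ∀ u ∈ zpowers z ⊔ zpowers t, ∀ g ∈ S ⊓ centralizer {t}, g * u * g⁻¹ = u := fun u hu g hg =>
      conj_eq_of_mem_centralizer (cent_sup (cent_zpowers (comm_of_cj (h.zc g hg.1)).symm)
        (cent_zpowers (comm_of_cj (mcs.1 hg.2)).symm)) hu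
    have cm : s' * s * s'⁻¹ = s := by
      by_contra e
      have e1 := (cs _ sT').resolve_left e
      have e2 := (cs' _ sT).resolve_left fun e' => e (cj_symm e')
      refine h.tz ?_
      calc t = s * s' * s⁻¹ * s' := by rw [e2, mul_assoc, s2', mul_one]
        _ = s * (s' * s * s'⁻¹) := by rw [inv_of_sq s2, inv_of_sq s2']; group
        _ = s * z * s⁻¹ := by rw [e1, inv_of_sq s2, mul_assoc]
        _ = z := h.zc s sS
    have zs := (comm_of_cj (h.zc s sS)).symm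
    have hV : E8 (sp3 z t s) := e8_sp3 h.z2 h.t2 s2 h.cm zs (comm_of_cj ts) (by
      rw [mem_sp2 h.z2 h.t2 h.cm] at sU
      push Not at sU
      exact ⟨h.z1, h.t1, h.tz, sU⟩)
    refine sU (h.small F sT s2 ?_)
    rcases (mem_adj s2 (cent_sup (cent_zpowers zs) (cent_zpowers (comm_of_cj ts)))).1
      (hV.mem_of_cent h.rk s2' (cent3 (h.zc _ sT'.1) (mcs.1 sT'.2) cm)) with e | e
    · exact back (fU _ e)
    · intro g hg
      refine (cs g hg).resolve_right fun e1 => ?_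
      have := fU _ e g hg
      rw [cj_mul, e1, ← mul_assoc] at this
      have := mul_right_cancel this
      rcases cs' g hg with e2 | e2 <;> rw [e2] at this
      · exact h.z1 (by simpa using this)
      · rw [mul_assoc, comm_of_cj (h.zc _ sT'.1), ← mul_assoc, mul_eq_right] at this
        exact h.tz (by rw [eq_inv_of_mul_eq_one_left this, inv_of_sq h.z2])
  · have nts : t ∉ centralizer {s} := fun e => h.z1 (by simpa using ts.symm.trans (mcs.1 e))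
    have sq : ∀ g ∈ S ⊓ centralizer {t}, g * g = 1 := by
      by_contra! hc
      obtain ⟨g, hg, g1⟩ := hc
      have le : closure {x | ∃ g ∈ S ⊓ centralizer {t}, x = g * g} ≤ S ⊓ centralizer {t} ⊓ centralizer {s} := by
        rw [closure_le]
        rintro _ ⟨g, hg, rfl⟩
        refine ⟨mul_mem hg hg, mcs.2 ?_⟩
        rw [show g * g * s * (g * g)⁻¹ = g * (g * s * g⁻¹) * g⁻¹ by group]
        rcases cs g hg with e | e
        · rw [e, e]
        · rw [e, cj_mul, e, h.zc g hg.1, ← mul_assoc, h.z2, one_mul]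
      have nr : 𝐍(S ⊓ centralizer {t}) ≤ 𝐍(closure {x | ∃ g ∈ S ⊓ centralizer {t}, x = g * g}) := fun k hk =>
        mem_normalizer_of_cj_le (cj_le_iff.2 (by
          rw [closure_le]
          rintro _ ⟨g, hg, rfl⟩
          refine mem_cj.2 (subset_closure ⟨_, conj_mem_of_mem_normalizer hk hg, by group⟩)))
      have hP := h.syl.isP.to_le (le.trans (inf_le_left.trans inf_le_left))
      obtain ⟨e, he, e2⟩ := exists_orderOf_eq_prime hP.to_inf_left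
        (inf_centralizer_ne_bot hP h.syl.isP.to_inf_left (le_normalizer.trans nr) fun e =>
          g1 (mem_bot.1 (e ▸ subset_closure ⟨g, hg, rfl⟩)))
      rcases (mem_sp2 h.z2 h.t2 h.cm).1 (h.small F (le he.1).1 (sq_of_orderOf e2).1 fun s hs =>
        cj_symm (conj_eq_of_mem_centralizer he.2 hs)) with rfl | rfl | rfl | rfl
      · exact (sq_of_orderOf e2).2 rfl
      · exact nts (h.nz ▸ (le (conj_mem_of_mem_normalizer (nr h.nN) he.1)).2)
      · exact nts (le he.1).2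
      · have := mul_mem (inv_mem (mcs.2 (cj_symm (h.zc s sS)))) (le he.1).2
        rw [inv_mul_cancel_left] at this
        exact nts this
    obtain ⟨u, hu, u2, u1, uz, hU⟩ := exists_four h.syl.isP hE hle h.uniq
    have tu : t * u * t⁻¹ = u := by
      by_contra e
      have e1 : ∀ x ∈ S, x * x = 1 → t * x * t⁻¹ = z * x → x * t * x⁻¹ = z * t := fun x hx x2 e => by
        calc _ = x * (t * x * t⁻¹) * t := by rw [inv_of_sq x2]; group
          _ = x * z * x⁻¹ * t := by rw [e, inv_of_sq x2, mul_assoc x z]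
          _ = _ := by rw [h.zc x hx]
      have e2 := e1 u hu u2 (((hU t h.tS).resolve_left e).trans (comm_of_cj (h.zc u hu)))
      have e3 := sq _ ⟨mul_mem sS hu, mcs.2 (by
        rw [show s * u * t * (s * u)⁻¹ = s * (u * t * u⁻¹) * s⁻¹ by group, e2, cj_mul, e1 s sS s2 ts, h.zc s sS,
          ← mul_assoc, h.z2, one_mul])⟩
      have e4 : s * u * s⁻¹ = u := cj_of_comm (by rw [← inv_of_sq e3, mul_inv_rev, inv_of_sq s2, inv_of_sq u2])
      have e5 : t * (y⁻¹ * u * y⁻¹⁻¹) * t⁻¹ = y⁻¹ * u * y⁻¹⁻¹ := by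
        conv_rhs => rw [← e4, es]
        group
      rcases hU _ (inv_mem hy.1) with e' | e' <;> rw [e'] at e5
      · exact e e5
      · rw [cj_mul, h.zc t h.tS] at e5
        exact e (mul_right_cancel e5)
    have uT : u ∈ S ⊓ centralizer {t} := ⟨hu, mcs.2 (cj_symm tu)⟩
    refine hn fun g hg => ?_
    rcases (mem_sp2 h.z2 h.t2 h.cm).1 (h.small F uT u2 fun s hs => cj_of_comm (comm_of_sq sq hs uT)) with
      e | e | e | e
    · exact absurd e u1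
    · exact absurd e uz
    · exact h.cm ▸ e ▸ hU g hg
    · have := hU g hg
      rwa [e, cj_mul, h.zc g hg, mul_assoc z, mul_right_inj, mul_right_inj, ← h.cm] at this

theorem fin (hE : E8 E) (hle : E ≤ S) :
    ∃ (U : Subgroup G) (z u b : G), H23.GW.Four U z u ∧ U ≤ S ∧ S ≤ 𝐍(U) ∧ S ≤ centralizer {z} ∧
      (∀ x ∈ S, S ≤ centralizer {x} → x * x = 1 → x = 1 ∨ x = z) ∧
      (∀ x ∈ S ⊓ 𝐂(U), x ∈ 𝐂(S ⊓ 𝐂(U)) → x * x = 1 → x ∈ U) ∧ (∃ k : ℕ, b ^ 3 ^ k = 1) ∧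
      b ∈ 𝐍(S ⊓ 𝐂(U)) ∧ b * z * b⁻¹ = u ∧ b * u * b⁻¹ = z * u ∧
      ∀ s ∈ S, s ∉ 𝐂(U) → b * s * b * s⁻¹ ∈ S ⊓ 𝐂(U) := by
  have nm := h.normal F hE hle
  have four : H23.GW.Four (zpowers z ⊔ zpowers t) z t :=
    ⟨orderOf_two h.z2 h.z1, orderOf_two h.t2 h.t1, h.tz.symm, h.cm, rfl⟩
  have eT : S ⊓ 𝐂(zpowers z ⊔ zpowers t) = S ⊓ centralizer {t} := le_antisymm
    (fun s hs => ⟨hs.1, mcs.2 (conj_eq_of_mem_centralizer hs.2 (m2r _ _))⟩)
    fun s hs => ⟨hs.1, cent_sup (cent_zpowers (comm_of_cj (h.zc s hs.1)).symm)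
      (cent_zpowers (comm_of_cj (mcs.1 hs.2)).symm)⟩
  have out : ∀ s ∈ S, s ∉ S ⊓ centralizer {t} → s * t * s⁻¹ = z * t := fun s hs e =>
    (nm s hs).resolve_left fun e' => e ⟨hs, mcs.2 e'⟩
  have two : ∀ s ∈ S, s ∉ S ⊓ centralizer {t} → ∀ s' ∈ S, s' ∉ S ⊓ centralizer {t} →
      s * s' ∈ S ⊓ centralizer {t} := fun s hs e s' hs' e' => ⟨mul_mem hs hs', mcs.2 (by
    rw [show s * s' * t * (s * s')⁻¹ = s * (s' * t * s'⁻¹) * s⁻¹ by group, out s' hs' e', cj_mul, out s hs e,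
      h.zc s hs, ← mul_assoc, h.z2, one_mul])⟩
  have SN : S ≤ 𝐍(S ⊓ centralizer {t}) := fun s hs => nrm_of fun g hg =>
    ⟨(show s * g * s⁻¹ ∈ S from mul_mem (mul_mem hs hg.1) (inv_mem hs)), mcs.2 (by
      have : g * (s⁻¹ * t * s⁻¹⁻¹) * g⁻¹ = s⁻¹ * t * s⁻¹⁻¹ := by
        rcases nm _ (inv_mem hs) with e | e <;> rw [e]
        exacts [mcs.1 hg.2, by rw [cj_mul, h.zc g hg.1, mcs.1 hg.2]]
      calc _ = s * (g * (s⁻¹ * t * s⁻¹⁻¹) * g⁻¹) * s⁻¹ := by group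
        _ = t := by rw [this]; group)⟩
  obtain ⟨x, hx, xT⟩ := SetLike.exists_of_lt h.lt
  have xt := out x hx xT
  have yN : n * x * n⁻¹ ∈ 𝐍(S ⊓ centralizer {t}) := mul_mem (mul_mem h.nN (SN hx)) (inv_mem h.nN)
  have y2 : n * x * n⁻¹ * (n * x * n⁻¹) ∈ S ⊓ centralizer {t} :=
    cj_mul n x x ▸ conj_mem_of_mem_normalizer h.nN (two x hx xT x hx xT)
  have yt : n * x * n⁻¹ * t * (n * x * n⁻¹)⁻¹ = t := by
    conv_lhs => rw [← h.nz]
    conv_rhs => rw [← h.nz, ← h.zc x hx]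
    group
  have yz : n * x * n⁻¹ * z * (n * x * n⁻¹)⁻¹ = z * t := by
    have e : n * x * n⁻¹ * z * (n * x * n⁻¹)⁻¹ = n * (x * (n⁻¹ * z * n⁻¹⁻¹) * x⁻¹) * n⁻¹ := by group
    have tz : t * z = z * t := h.cm.symm
    rcases (mem_sp2 h.z2 h.t2 h.cm).1 (h.small F (conj_mem_of_mem_normalizer (inv_mem h.nN) h.zT) (sq_cj _ h.z2)
      (h.cen (inv_mem h.nN) fun s hs => h.zc s hs.1)) with e' | e' | e' | e'
    · exact absurd (conj_eq_one_iff.1 e') h.z1
    · exact absurd (by rw [← h.nz]; conv_lhs => rw [← e']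
                       group) h.tz
    · have : n * t * n⁻¹ = z := by
        conv_lhs => rw [← e']
        group
      rw [e, e', xt, cj_mul, h.nz, this, tz]
    · rw [e, e', cj_mul x, h.zc x hx, xt, ← mul_assoc z, h.z2, one_mul]
      have : n * (z * t) * n⁻¹ = z := by rw [← e']; group
      rw [cj_mul, h.nz] at this
      rw [← tz, ← this, ← mul_assoc t, h.t2, one_mul]
  generalize n * x * n⁻¹ = y at yN y2 yt yz
  have ρN := mul_mem (SN hx) yN
  have r1 : x * y * z * (x * y)⁻¹ = t := by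
    rw [show x * y * z * (x * y)⁻¹ = x * (y * z * y⁻¹) * x⁻¹ by group, yz, cj_mul, h.zc x hx, xt, ← mul_assoc,
      h.z2, one_mul]
  have r2 : x * y * t * (x * y)⁻¹ = z * t := by
    rw [show x * y * t * (x * y)⁻¹ = x * (y * t * y⁻¹) * x⁻¹ by group, yt, xt]
  obtain ⟨k, j, -, e, -, hk, -⟩ := H45.NE8.exists_three_part (x * y)
  refine ⟨_, z, t, (x * y) ^ k, four, sup_le (zpowers_le.2 h.zS) (zpowers_le.2 h.tS), fun s hs => nrm2
    (by rw [h.zc s hs]; exact m2l _ _) (by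
      rcases nm s hs with e | e <;> rw [e]
      exacts [m2r _ _, mul_mem (m2l _ _) (m2r _ _)]), fun s hs => mcs.2 (h.zc s hs),
    fun x hx hc x2 => h.uniq x hx x2 fun s hs => mcs.1 (hc hs), fun x hx hc x2 => h.small F (eT ▸ hx) x2
      fun s hs => cj_symm (conj_eq_of_mem_centralizer hc (eT ▸ hs)), ⟨j, e⟩, eT ▸ pow_mem ρN k,
    (H45.NE8.rot_pow four r1 r2 hk).1, (H45.NE8.rot_pow four r1 r2 hk).2, fun s hs hs' => ?_⟩
  rw [eT]
  refine H45.NE8.inv_pow_mod ρN ?_ k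
  have sT : s ∉ S ⊓ centralizer {t} := fun e => hs' (eT.symm ▸ e : s ∈ S ⊓ 𝐂(zpowers z ⊔ zpowers t)).2
  have := mul_mem (conj_mem_of_mem_normalizer (SN hx) (mul_mem (conj_mem_of_mem_normalizer yN (two s hs sT x hx xT)) y2))
    (two x hx xT _ (inv_mem hs) (mt inv_mem_iff.1 sT))
  convert this using 1
  group

end Mx

/-- **P1**: the fused normal four-group. -/
theorem p1 (F : H45.NE8.Fu G) (hS : IsSylowIn 2 S ⊤) (nsc : NSC S) (h3 : PRankLE 2 3 G) (h2 : ¬ PRankLE 2 2 G) :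
    ∃ (U : Subgroup G) (z u b : G), H23.GW.Four U z u ∧ U ≤ S ∧ S ≤ 𝐍(U) ∧ S ≤ centralizer {z} ∧
      (∀ x ∈ S, S ≤ centralizer {x} → x * x = 1 → x = 1 ∨ x = z) ∧
      (∀ x ∈ S ⊓ 𝐂(U), x ∈ 𝐂(S ⊓ 𝐂(U)) → x * x = 1 → x ∈ U) ∧ (∃ k : ℕ, b ^ 3 ^ k = 1) ∧
      b ∈ 𝐍(S ⊓ 𝐂(U)) ∧ b * z * b⁻¹ = u ∧ b * u * b⁻¹ = z * u ∧
      ∀ s ∈ S, s ∉ 𝐂(U) → b * s * b * s⁻¹ ∈ S ⊓ 𝐂(U) := by
  obtain ⟨E, hle, sq, h4⟩ := H45.NE8.exists_e8 h2 hS
  have hE : E8 E := ⟨sq, by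
    obtain ⟨k, hk⟩ := IsPGroup.iff_card.1 (isP_of_sq sq)
    have := card_le_of_rank h3 sq
    rw [hk] at h4 this ⊢
    have h5 : 2 < k := (Nat.pow_lt_pow_iff_right (a := 2) (by norm_num)).1 h4
    have h6 : k ≤ 3 := (Nat.pow_le_pow_iff_right (a := 2) (by norm_num)).1 this
    obtain rfl : k = 3 := by omega
    rfl⟩
  obtain ⟨z, hz, z2⟩ := exists_orderOf_eq_prime hS.isP.to_inf_left
    (center_ne_bot hS.isP fun e => hE.ne_bot (eq_bot_iff.2 (e ▸ hle)))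
  obtain ⟨z2, z1⟩ := sq_of_orderOf z2
  have zc : ∀ s ∈ S, s * z * s⁻¹ = z := fun s hs => cj_symm (conj_eq_of_mem_centralizer hz.2 hs)
  by_cases e : ∀ y ∈ S, y * y = 1 → (∀ s ∈ S, s * y * s⁻¹ = y) → y = 1 ∨ y = z
  · obtain ⟨t, n, h⟩ := Z2.exists_mx ⟨h3, hS, hz.1, z2, z1, zc, e⟩ F
    exact h.fin F hE hle
  exfalso
  push Not at e
  obtain ⟨z', hz', z2', zc', z1', ne⟩ := e
  refine Z4.false ⟨h3, hS, hz.1, hz', z2, z2', z1, z1', ne, zc, zc', fun y hy y2 yc => by_contra fun hn => ?_⟩ F nsc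
  have cm := comm_of_cj (zc' z hz.1)
  have hV : E8 (sp3 z z' y) := e8_sp3 z2 z2' y2 cm (comm_of_cj (yc z hz.1)) (comm_of_cj (yc z' hz')) (by
    rw [mem_sp2 z2 z2' cm] at hn
    push Not at hn
    exact ⟨z1, z1', ne, hn⟩)
  obtain ⟨x, hx, g, h1, h4⟩ := nsc.exists (X := sp3 z z' y)
    (sup_le (sup_le (zpowers_le.2 hz.1) (zpowers_le.2 hz')) (zpowers_le.2 hy)) hV.ne_bot hV.sq
  exact h4 (hV.mem_of_cent h3 (sq_cj g (hV.sq x hx)) (cent3 (zc _ h1) (zc' _ h1) (yc _ h1)))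

end H22.RG
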