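import Mathlib
import Cfsg.Agent.Base
import Cfsg.Agent.Lib.Rk3G.P1
import Cfsg.Agent.Lib.NE8.Tri

/-! The data of a fused normal four-group in 2-rank three. -/

set_option autoImplicit false
set_option linter.unusedSectionVars false
set_option linter.unusedVariables false

namespace H22.RG

open Subgroup H69 H70 Cfsg H22.RK
open scoped commutatorElement Pointwise

variable {G : Type*} [Group G] [Finite G] {S U V E K : Subgroup G} {z u b f s t x y v : G}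

/-- the conclusion of `p1` together with the rank hypothesis. -/
structure PD (S U : Subgroup G) (z u b : G) : Prop where
  rk : PRankLE 2 3 G
  two : IsPGroup 2 S
  four : H23.GW.Four U z u
  le : U ≤ S
  nrm : S ≤ 𝐍(U)
  zc : S ≤ centralizer {z}
  uniq : ∀ x ∈ S, S ≤ centralizer {x} → x * x = 1 → x = 1 ∨ x = z
  om : ∀ x ∈ S ⊓ 𝐂(U), x ∈ 𝐂(S ⊓ 𝐂(U)) → x * x = 1 → x ∈ U
  three : ∃ k : ℕ, b ^ 3 ^ k = 1
  nT : b ∈ 𝐍(S ⊓ 𝐂(U))
  rz : b * z * b⁻¹ = u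
  ru : b * u * b⁻¹ = z * u
  inv : ∀ s ∈ S, s ∉ 𝐂(U) → b * s * b * s⁻¹ ∈ S ⊓ 𝐂(U)

theorem exists_pd (F : H45.NE8.Fu G) (hS : IsSylowIn 2 S ⊤) (nsc : NSC S) (h3 : PRankLE 2 3 G)
    (h2 : ¬ PRankLE 2 2 G) : ∃ U z u b, PD S U z u b := by
  obtain ⟨U, z, u, b, h1, h2, h4, h5, h6, h7, h8, h9, h10, h11, h12⟩ := p1 F hS nsc h3 h2
  exact ⟨U, z, u, b, h3, hS.isP, h1, h2, h4, h5, h6, h7, h8, h9, h10, h11, h12⟩

namespace PD

variable (h : PD S U z u b)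
include h

theorem sqU (hx : x ∈ U) : x * x = 1 := H45.NE8.four_sq h.four hx

theorem le0 : U ≤ S ⊓ 𝐂(U) := le_inf h.le h.four.le_cent

theorem twoT : IsPGroup 2 (S ⊓ 𝐂(U) : Subgroup G) := h.two.to_inf_left

theorem nrmT : S ≤ 𝐍(S ⊓ 𝐂(U)) := H69.le_normalizer_inf le_normalizer (H69.le_normalizer_centralizer h.nrm)

theorem nU : b ∈ 𝐍(U) := h.four.mem_norm (h.rz ▸ h.four.mem_right) (h.ru ▸ h.four.mem_mul)

theorem cubeU : b ^ 3 ∈ 𝐂(U) := h.four.rot_cube h.rz h.ru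

theorem fpfU (hx : x ∈ U) (e : b * x * b⁻¹ = x) : x = 1 := by
  rcases h.four.mem_iff.1 hx with rfl | rfl | rfl | rfl
  · rfl
  · exact absurd (e.symm.trans h.rz) h.four.ne
  · exact absurd (h.ru.symm.trans e) h.four.mul_ne_right
  · exact absurd (e.symm.trans (h.four.rot_third h.rz h.ru)) h.four.mul_ne_left

theorem odd (k : ℕ) : Odd (orderOf (b ^ k)) := by
  obtain ⟨j, hj⟩ := h.three
  exact Odd.of_dvd_nat (Odd.pow (by decide)) (orderOf_dvd_of_pow_eq_one (n := 3 ^ j)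
    (by rw [← pow_mul, mul_comm, pow_mul, hj, one_pow]))

theorem fix_coset (hK : IsPGroup 2 K) (hn : b ∈ 𝐍(K)) (hv : b * v * b⁻¹ * v⁻¹ ∈ K) :
    ∃ w, w * v⁻¹ ∈ K ∧ b * w * b⁻¹ = w := by
  obtain ⟨j, hj⟩ := h.three
  obtain ⟨i, hi⟩ := IsPGroup.iff_card.1 hK
  exact H45.NE8.exists_fix_coset (k := j) Nat.prime_three (fun e => absurd
    (Nat.prime_three.dvd_of_dvd_pow (hi ▸ e)) (by norm_num)) le_top (mem_top v) (hj ▸ one_mem _) hn hv

theorem cj_z (hs : s ∈ S) : s * z * s⁻¹ = z := mcs.1 (h.zc hs)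

/-- an involution fixed by `C_S(U)` -/
theorem omT (hx : x ∈ S ⊓ 𝐂(U)) (h2 : x * x = 1) (hc : ∀ t ∈ S ⊓ 𝐂(U), t * x * t⁻¹ = x) : x ∈ U :=
  h.om x hx (mem_centralizer_iff.2 fun t ht => comm_of_cj (hc t ht)) h2

theorem cj_u (hs : s ∈ S) (hn : s ∉ 𝐂(U)) : s * u * s⁻¹ = z * u := by
  rcases h.four.mem_iff.1 (conj_mem_of_mem_normalizer (h.nrm hs) h.four.mem_right) with e | e | e | e
  · exact absurd (conj_eq_one_iff.1 e) (sq_of_orderOf h.four.hb).2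
  · exact absurd (by simpa using e.trans (h.cj_z hs).symm) h.four.ne.symm
  · refine absurd (mem_centralizer_iff.2 fun x hx => ?_) hn
    rcases h.four.mem_iff.1 hx with rfl | rfl | rfl | rfl
    · simp
    · exact (comm_of_cj (h.cj_z hs)).symm
    · exact (comm_of_cj e).symm
    · exact (comm_of_cj (by rw [cj_mul, h.cj_z hs, e])).symm
  · exact e

theorem exists_out : ∃ s ∈ S, s ∉ 𝐂(U) := by
  by_contra! hc
  rcases h.uniq u (h.le h.four.mem_right) (fun s hs => mcs.2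
    (conj_eq_of_mem_centralizer (hc s hs) h.four.mem_right)) h.four.bb with e | e
  exacts [(sq_of_orderOf h.four.hb).2 e, h.four.ne e.symm]

theorem e8_adj (hc : x ∈ 𝐂(U)) (h2 : x * x = 1) (hn : x ∉ U) : E8 (U ⊔ zpowers x) :=
  ⟨sq_adj (fun _ => h.sqU) h2 hc, by rw [card_adj h2 hc hn, h.four.card]⟩

/-- two commuting involutions of `C(U) - U` are congruent modulo `U` -/
theorem congr (hx : x ∈ 𝐂(U)) (x2 : x * x = 1) (hn : x ∉ U) (hy : y ∈ 𝐂(U)) (y2 : y * y = 1)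
    (hm : y ∉ U) (e : x * y = y * x) : y * x⁻¹ ∈ U := by
  rw [inv_of_sq x2]
  exact ((mem_adj x2 hx).1 ((h.e8_adj hx x2 hn).mem_of_cent h.rk y2 (cent_sup hy (cent_zpowers e)))).resolve_left hm

end PD

end H22.RG
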