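import Mathlib
import Cfsg.Agent.Base
import Cfsg.Agent.Lib.Rk3G.PD

/-! The cube of the 3-element centralises `C_S(U)`. -/

set_option autoImplicit false
set_option linter.unusedSectionVars false
set_option linter.unusedVariables false

namespace H22.RG

open Subgroup H69 H70 Cfsg H22.RK
open scoped commutatorElement Pointwise

variable {G : Type*} [Group G] [Finite G] {S T U V E K N : Subgroup G} {z u b f s t x y v g γ : G}

/-- the preimage of `Ω₁ Z(T / N)` -/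
def omZ (T N : Subgroup G) (hn : T ≤ 𝐍(N)) : Subgroup G where
  carrier := {v | v ∈ T ∧ (∀ x ∈ T, x * v * x⁻¹ * v⁻¹ ∈ N) ∧ v * v ∈ N}
  mul_mem' := fun {a b} ha hb => ⟨mul_mem ha.1 hb.1, fun x hx => by
    have : x * (a * b) * x⁻¹ * (a * b)⁻¹ = x * a * x⁻¹ * a⁻¹ * (a * (x * b * x⁻¹ * b⁻¹) * a⁻¹) := by group
    rw [this]
    exact mul_mem (ha.2.1 x hx) (conj_mem_of_mem_normalizer (hn ha.1) (hb.2.1 x hx)), by
    have : a * b * (a * b) = a * (b * a * b⁻¹ * a⁻¹) * a⁻¹ * (a * a) * (b * b) := by group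
    rw [this]
    exact mul_mem (mul_mem (conj_mem_of_mem_normalizer (hn ha.1) (ha.2.1 b hb.1)) ha.2.2) hb.2.2⟩
  one_mem' := ⟨one_mem _, fun x _ => by simp, by simp⟩
  inv_mem' := fun {a} ha => ⟨inv_mem ha.1, fun x hx => by
    have : x * a⁻¹ * x⁻¹ * a⁻¹⁻¹ = a⁻¹ * (x * a * x⁻¹ * a⁻¹)⁻¹ * a⁻¹⁻¹ := by group
    rw [this]
    exact conj_mem_of_mem_normalizer (hn (T.inv_mem ha.1)) (inv_mem (ha.2.1 x hx)), by
    rw [← mul_inv_rev]; exact inv_mem ha.2.2⟩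

theorem le_omZ (hn : T ≤ 𝐍(N)) (hle : N ≤ T) : N ≤ omZ T N hn := fun v hv =>
  ⟨hle hv, fun x hx => mul_mem (conj_mem_of_mem_normalizer (hn hx) hv) (inv_mem hv), mul_mem hv hv⟩

theorem norm_omZ (hn : T ≤ 𝐍(N)) (h0 : g ∈ 𝐍(T)) (hU : g ∈ 𝐍(N)) : g ∈ 𝐍(omZ T N hn) :=
  nrm_of fun v hv => ⟨conj_mem_of_mem_normalizer h0 hv.1, fun x hx => by
    have : x * (g * v * g⁻¹) * x⁻¹ * (g * v * g⁻¹)⁻¹ =
      g * (g⁻¹ * x * g * v * (g⁻¹ * x * g)⁻¹ * v⁻¹) * g⁻¹ := by group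
    rw [this]
    exact conj_mem_of_mem_normalizer hU (hv.2.1 _ (conj_mem_of_mem_normalizer' h0 hx)), by
    rw [← cj_mul]; exact conj_mem_of_mem_normalizer hU hv.2.2⟩

/-- the core of `C_T(γ)` in `T` -/
def fixCore (T : Subgroup G) (γ : G) : Subgroup G where
  carrier := {x | x ∈ T ∧ ∀ t ∈ T, γ * (t * x * t⁻¹) * γ⁻¹ = t * x * t⁻¹}
  mul_mem' := fun {a b} ha hb => ⟨mul_mem ha.1 hb.1, fun t ht => by
    rw [cj_mul t, cj_mul γ, ha.2 t ht, hb.2 t ht]⟩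
  one_mem' := ⟨one_mem _, fun t _ => by simp⟩
  inv_mem' := fun {a} ha => ⟨inv_mem ha.1, fun t ht => by
    have := congrArg (·⁻¹) (ha.2 t ht)
    simpa [mul_assoc] using this⟩

theorem fixCore_fix (hx : x ∈ fixCore T γ) : γ * x * γ⁻¹ = x := by simpa using hx.2 1 (one_mem _)

theorem norm_fixCore (h0 : g ∈ 𝐍(T)) (e : g * γ * g⁻¹ = γ) : g ∈ 𝐍(fixCore T γ) :=
  nrm_of fun v hv => ⟨conj_mem_of_mem_normalizer h0 hv.1, fun t ht => by
    have e1 := hv.2 _ (conj_mem_of_mem_normalizer' h0 ht)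
    calc _ = g * γ * g⁻¹ * (t * (g * v * g⁻¹) * t⁻¹) * (g * γ * g⁻¹)⁻¹ := by rw [e]
      _ = g * (γ * (g⁻¹ * t * g * v * (g⁻¹ * t * g)⁻¹) * γ⁻¹) * g⁻¹ := by group
      _ = _ := by rw [e1]; group⟩

theorem le_norm_fixCore : T ≤ 𝐍(fixCore T γ) := fun g hg =>
  nrm_of fun v hv => ⟨mul_mem (mul_mem hg hv.1) (inv_mem hg), fun t ht => by
    have := hv.2 _ (mul_mem ht hg)
    simpa [mul_assoc] using this⟩

/-- elements of `K` whose norm under `γ` lies in `U` -/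
def nrmSub (K U : Subgroup G) (γ : G) (hγ : γ ∈ 𝐍(K)) (hn : K ≤ 𝐍(U))
    (hm : ∀ x ∈ K, ∀ y ∈ K, x * y * x⁻¹ * y⁻¹ ∈ U) : Subgroup G where
  carrier := {x | x ∈ K ∧ x * (γ * x * γ⁻¹) * (γ * (γ * x * γ⁻¹) * γ⁻¹) ∈ U}
  mul_mem' := fun {a b} ha hb => ⟨mul_mem ha.1 hb.1, by
    have c := fun {x} (hx : x ∈ K) => conj_mem_of_mem_normalizer hγ hx
    have e1 := H45.NE8.swap_mem hn hm ha.1 (mul_mem (c ha.1) (c (c ha.1))) hb.1
      (b := γ * b * γ⁻¹ * (γ * (γ * b * γ⁻¹) * γ⁻¹)) (by simpa only [mul_assoc] using mul_mem ha.2 hb.2)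
    have e2 := H45.NE8.swap_mem hn hm (mul_mem (mul_mem ha.1 hb.1) (c ha.1)) (c (c ha.1)) (c hb.1)
      (b := γ * (γ * b * γ⁻¹) * γ⁻¹) (by simpa only [mul_assoc] using e1)
    rw [cj_mul γ a, cj_mul γ (γ * a * γ⁻¹)]
    simpa only [mul_assoc] using e2⟩
  one_mem' := ⟨one_mem _, by simp⟩
  inv_mem' := fun {a} ha => ⟨inv_mem ha.1, by
    have c := fun {x} (hx : x ∈ K) => conj_mem_of_mem_normalizer hγ hx
    have e1 := H45.NE8.swap_mem hn hm (one_mem K) ha.1 (mul_mem (c ha.1) (c (c ha.1))) (b := 1)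
      (by simpa only [mul_assoc, one_mul, mul_one] using ha.2)
    have e2 := H45.NE8.swap_mem hn hm (one_mem K) (c ha.1) (c (c ha.1)) (b := a)
      (by simpa only [mul_assoc, one_mul, mul_one] using e1)
    convert inv_mem e2 using 1
    group⟩

theorem mem_of_cube (hS : IsPGroup 2 S) (hx : x ∈ S) (h : x * x * x ∈ U) : x ∈ U := by
  obtain ⟨k, hk⟩ := H69.isPGroup_iff_mem.1 hS x hx
  obtain ⟨m, hm⟩ := exists_pow_eq_self_of_coprime (x := x) (n := 3)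
    (Nat.Coprime.of_dvd_right (orderOf_dvd_of_pow_eq_one hk) (Nat.Coprime.pow_right k (by norm_num)))
  rw [← hm]
  exact pow_mem (by rwa [pow_three']) m

namespace PD

variable (h : PD S U z u b)
include h

theorem cube_fin {L : Subgroup G} (hL : L ≤ S ⊓ 𝐂(U)) (hU : U < L) (hb : b ∈ 𝐍(L))
    (h2 : ∀ x ∈ L, x * x ∈ U) (h1 : ∀ x ∈ L, x * x = 1 → x ∈ U)
    (hf : ∀ x ∈ L, b ^ 3 * x * (b ^ 3)⁻¹ = x → x ∈ U) : False := by
  have st : H45.NE8.St L U z u := ⟨h.twoT.to_le hL, h.four, hU.le, hL.trans (inf_le_left.trans h.nrm),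
    hL.trans (inf_le_left.trans h.zc), fun A hA _ a2 =>
      h.four.card ▸ card_le_of_le fun a ha => h1 a (hA ha) (a2 a ha)⟩
  have e1 := st.sr le_rfl hU.le h2
  have e2 := H1.card_mul_relIndex_of_le hU.le
  obtain ⟨j, hj⟩ := h.three
  have e3 := H45.NE8.nine_dvd hj (X := (L : Set G) \ U) (fun x hx => ⟨conj_mem_of_mem_normalizer hb hx.1,
    fun e => hx.2 (by simpa [mul_assoc] using conj_mem_of_mem_normalizer' h.nU e)⟩) fun x hx e => hx.2 (hf x hx.1 e)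
  rw [Set.ncard_sdiff hU.le, ← H83.Mac.card_eq_ncard, ← H83.Mac.card_eq_ncard] at e3
  have e4 : Nat.card U < Nat.card L := lt_of_not_ge fun e => hU.ne (eq_of_le_of_card_ge hU.le e)
  obtain ⟨k, hk⟩ := IsPGroup.iff_card.1 (h.twoT.to_le hL)
  rw [h.four.card] at e2 e3 e4
  have : k ≤ 6 := (Nat.pow_le_pow_iff_right (a := 2) (by norm_num)).1 (by rw [← hk]; omega)
  rw [hk] at e3 e4
  interval_cases k <;> omega

theorem cube_aux (ho : Odd (orderOf γ)) (bγ : b * γ * b⁻¹ = γ) (hn : γ ∈ 𝐍(S ⊓ 𝐂(U))) (hU : γ ∈ 𝐂(U))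
    (h3 : γ ^ 3 ∈ 𝐂(S ⊓ 𝐂(U))) (hf : ∀ x, b ^ 3 * x * (b ^ 3)⁻¹ = x → γ * x * γ⁻¹ = x) :
    γ ∈ 𝐂(S ⊓ 𝐂(U)) := by
  by_contra hc
  have h1 := h.omT (x := 1)
  have le0 := h.le0
  have two := h.twoT
  have nT := h.nT
  have cT : S ⊓ 𝐂(U) ≤ 𝐂(U) := inf_le_right
  have nU : S ⊓ 𝐂(U) ≤ 𝐍(U) := inf_le_left.trans h.nrm
  have om := fun x hx => h.omT (x := x) hx
  have fin := fun L => h.cube_fin (L := L)
  generalize S ⊓ 𝐂(U) = T at *
  obtain ⟨N, eN⟩ : ∃ N, N = fixCore T γ := ⟨_, rfl⟩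
  have NT : N ≤ T := fun x hx => (eN ▸ hx :).1
  have TN : T ≤ 𝐍(N) := eN ▸ le_norm_fixCore
  have fx : ∀ {x}, x ∈ N → γ * x * γ⁻¹ = x := fun hx => fixCore_fix (eN ▸ hx :)
  have UN : U ≤ N := fun x hx => eN ▸ ⟨le0 hx, fun t ht =>
    conj_eq_of_mem_centralizer hU (conj_mem_of_mem_normalizer (nU ht) hx)⟩
  have bN : b ∈ 𝐍(N) := eN ▸ norm_fixCore nT bγ
  have γN : γ ∈ 𝐍(N) := eN ▸ norm_fixCore hn (by group)
  obtain ⟨k, kT, kN, k2, kc⟩ := H45.NE8.exists_cen_mod two two le_normalizer TN TN (fun e =>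
    hc (mem_centralizer_iff.2 fun t ht => (comm_of_cj (fx (e ht))).symm))
  have kK : k ∈ omZ T N TN := ⟨kT, kc, k2⟩
  have nK : ∀ {g}, g ∈ 𝐍(T) → g ∈ 𝐍(N) → g ∈ 𝐍(omZ T N TN ⊓ 𝐂(N)) := fun h1 h2 =>
    H69.le_normalizer_inf (zpowers_le.2 (norm_omZ TN h1 h2))
      (H69.le_normalizer_centralizer (zpowers_le.2 h2)) (mem_zpowers _)
  have hm : ∀ x ∈ omZ T N TN ⊓ 𝐂(N), ∀ y ∈ omZ T N TN ⊓ 𝐂(N), x * y * x⁻¹ * y⁻¹ ∈ U := fun x hx y hy => by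
    have c1 := hy.1.2.1 x hx.1.1
    refine om _ (NT c1) ?_ fun t ht => ?_
    · calc _ = x * y * x⁻¹ * y⁻¹ * (x * (x * y * x⁻¹ * y⁻¹) * x⁻¹) := by rw [conj_eq_of_mem_centralizer hx.2 c1]
        _ = x * y * x⁻¹ * (y⁻¹ * (x * x) * y⁻¹⁻¹) * (x⁻¹ * y⁻¹ * x⁻¹) := by group
        _ = x * (y * x * x⁻¹ * y⁻¹) * x⁻¹ := by
          rw [conj_eq_of_mem_centralizer (inv_mem hy.2) hx.1.2.2]; group
        _ = 1 := by group
    · obtain ⟨n, en⟩ : ∃ n, n = t * x * t⁻¹ * x⁻¹ := ⟨_, rfl⟩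
      obtain ⟨m, em⟩ : ∃ m, m = t * y * t⁻¹ * y⁻¹ := ⟨_, rfl⟩
      have n1 : n ∈ N := en ▸ hx.1.2.1 t ht
      have m1 : m ∈ N := em ▸ hy.1.2.1 t ht
      have n2 : n ∈ 𝐂(N) := en ▸ mul_mem (conj_mem_of_mem_normalizer (nK (le_normalizer ht) (TN ht)) hx).2
        (inv_mem hx.2)
      have e1 := conj_eq_of_mem_centralizer hx.2 m1
      have e2 := conj_eq_of_mem_centralizer n2 m1
      have e3 := conj_eq_of_mem_centralizer hy.2 n1
      have e4 := conj_eq_of_mem_centralizer n2 c1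
      calc _ = n * x * (m * y) * (n * x)⁻¹ * (m * y)⁻¹ := by rw [en, em]; group
        _ = n * (x * m * x⁻¹) * n⁻¹ * (n * (x * y * x⁻¹ * y⁻¹) * n⁻¹) * (n * (y * n * y⁻¹)⁻¹) * m⁻¹ := by group
        _ = m * (x * y * x⁻¹ * y⁻¹) * m⁻¹ := by rw [e1, e2, e3, e4]; group
        _ = _ := by
          rw [cj_mul, cj_mul, cj_mul, cj_symm e1, cj_symm (conj_eq_of_mem_centralizer hy.2 m1),
            cj_symm (conj_eq_of_mem_centralizer (inv_mem hx.2) m1),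
            cj_symm (conj_eq_of_mem_centralizer (inv_mem hy.2) m1)]
  have KT : omZ T N TN ⊓ 𝐂(N) ≤ T := fun x hx => hx.1.1
  have γK := nK hn γN
  have uo := fun {x} => H45.NE8.cent_of_stab ho h.four.isPGroup hU (L := U) (x := x)
  have fL : ∀ x ∈ nrmSub _ U γ γK (KT.trans nU) hm, γ * x * γ⁻¹ = x → x ∈ U := fun x hx e =>
    mem_of_cube two (KT hx.1) (by have := hx.2; rwa [e, e] at this)
  have c3 : ∀ x ∈ T, γ * (γ * (γ * x * γ⁻¹) * γ⁻¹) * γ⁻¹ = x := fun x hx =>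
    calc _ = γ ^ 3 * x * (γ ^ 3)⁻¹ := by simp [pow_succ, mul_assoc]
      _ = x := conj_eq_of_mem_centralizer h3 hx
  refine fin (nrmSub _ U γ γK (KT.trans nU) hm) (fun x hx => KT hx.1) (lt_of_le_of_ne (fun x hx => ⟨⟨le_omZ TN NT
    (UN hx), le_centralizer_iff.1 (NT.trans cT) hx⟩, by rw [fx (UN hx), fx (UN hx)]; exact mul_mem (mul_mem hx hx) hx⟩)
    fun e => kN ?_) (nrm_of fun x hx => ⟨conj_mem_of_mem_normalizer (nK nT bN) hx.1, ?_⟩)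
    (fun x hx => fL _ (mul_mem hx hx) (fx hx.1.1.2.2)) (fun x hx x2 => ?_) fun x hx e => fL x hx (hf x e)
  · have k0 : k⁻¹ * (γ * k * γ⁻¹) ∈ U := e ▸ ⟨⟨(omZ T N TN).mul_mem ((omZ T N TN).inv_mem kK)
      (conj_mem_of_mem_normalizer (norm_omZ TN hn γN) kK), mem_centralizer_iff.2 fun t ht =>
        comm_of_cj (calc
          _ = (t * k * t⁻¹)⁻¹ * ((γ * t * γ⁻¹) * (γ * k * γ⁻¹) * (γ * t * γ⁻¹)⁻¹) := by rw [fx ht]; group
          _ = (t * k * t⁻¹)⁻¹ * (γ * (t * k * t⁻¹ * k⁻¹) * γ⁻¹) * (γ * k * γ⁻¹) := by group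
          _ = _ := by rw [fx (kc t (NT ht))]; group)⟩, by
        rw [show k⁻¹ * (γ * k * γ⁻¹) * (γ * (k⁻¹ * (γ * k * γ⁻¹)) * γ⁻¹) *
          (γ * (γ * (k⁻¹ * (γ * k * γ⁻¹)) * γ⁻¹) * γ⁻¹) = k⁻¹ * (γ * (γ * (γ * k * γ⁻¹) * γ⁻¹) * γ⁻¹) by group,
          c3 k kT, inv_mul_cancel]
        exact one_mem _⟩
    have k1 : γ * k * γ⁻¹ = k := by
      have := uo (x := k⁻¹) (by convert inv_mem k0 using 1; group)
      simpa [mul_assoc] using congrArg (·⁻¹) this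
    exact eN ▸ ⟨kT, fun t ht => by
      rw [show t * k * t⁻¹ = t * k * t⁻¹ * k⁻¹ * k by group, cj_mul, fx (kc t ht), k1]⟩
  · have := conj_mem_of_mem_normalizer h.nU hx.2
    convert this using 1
    conv_lhs => rw [← bγ]
    group
  · by_contra xU
    have xT := KT hx.1
    have x1 := conj_mem_of_mem_normalizer hn xT
    have x3 := conj_mem_of_mem_normalizer hn x1
    have e1 : x * (γ * x * γ⁻¹) * (x * (γ * x * γ⁻¹)) = 1 := by
      have e2 := conj_eq_of_mem_centralizer (cT x3) hx.2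
      have e3 := sq_cj γ (sq_cj γ x2)
      have e4 := h.sqU hx.2
      generalize γ * (γ * x * γ⁻¹) * γ⁻¹ = w at e2 e3 e4
      generalize x * (γ * x * γ⁻¹) = p at e2 e4 ⊢
      have e5 : w * p = p * w := by rw [← e2]; group
      rwa [show p * w * (p * w) = p * (w * p) * w by group, e5, show p * (p * w) * w = p * p * (w * w) by group,
        e3, mul_one] at e4
    refine xU (fL x hx (uo (h.congr (cT xT) x2 xU (cT x1) (sq_cj γ x2) (fun e => xU ?_) ?_)))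
    · have := conj_eq_of_mem_centralizer (inv_mem hU) e
      rwa [show x = γ * x * γ⁻¹ by rw [← this]; group]
    · rw [mul_eq_one_iff_eq_inv] at e1
      rw [e1, mul_inv_rev, inv_of_sq x2, inv_of_sq (sq_cj γ x2)]

/-- **CUBE** -/
theorem cube : b ^ 3 ∈ 𝐂(S ⊓ 𝐂(U)) := by
  have key : ∀ j : ℕ, b ^ 3 ^ (j + 2) ∈ 𝐂(S ⊓ 𝐂(U)) → b ^ 3 ^ (j + 1) ∈ 𝐂(S ⊓ 𝐂(U)) := fun j hj =>
    h.cube_aux (h.odd _) (by group) (pow_mem h.nT _) (by rw [pow_succ', pow_mul]; exact pow_mem h.cubeU _)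
      (by rwa [← pow_mul, ← pow_succ]) fun x e => by
        rw [pow_succ', pow_mul]
        exact mcs.1 (pow_mem (mcs.2 e) _)
  obtain ⟨k, hk⟩ := h.three
  have : ∀ j : ℕ, b ^ 3 ^ (j + 1) ∈ 𝐂(S ⊓ 𝐂(U)) → b ^ 3 ∈ 𝐂(S ⊓ 𝐂(U)) := fun j => by
    induction j with
    | zero => simp
    | succ j ih => exact fun e => ih (key j e)
  exact this k (by rw [pow_succ, pow_mul, hk, one_pow]; exact one_mem _)

end PD

end H22.RG
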