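import Mathlib
import Cfsg.Agent.Base
import Cfsg.Agent.Lib.Rk3G.Cube

/-! The normal elementary subgroup of order eight over the fused four-group. -/

set_option autoImplicit false
set_option linter.unusedSectionVars false
set_option linter.unusedVariables false

namespace H22.RG

open Subgroup H69 H70 Cfsg H22.RK
open scoped commutatorElement Pointwise

variable {G : Type*} [Group G] [Finite G] {S T U V E K N : Subgroup G} {z u b f s t x y v g : G}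

/-- a normal `E₈` over `U` containing an involution fixed by `b` -/
structure VD (S U V : Subgroup G) (z u b f : G) : Prop extends PD S U z u b where
  e8 : E8 V
  sub : U ≤ V
  leV : V ≤ S
  nrmV : S ≤ 𝐍(V)
  fV : f ∈ V
  fU : f ∉ U
  bf : b * f * b⁻¹ = f

namespace PD

variable (h : PD S U z u b)
include h

theorem c3 (hx : x ∈ S ⊓ 𝐂(U)) : b * (b * (b * x * b⁻¹) * b⁻¹) * b⁻¹ = x :=
  calc _ = b ^ 3 * x * (b ^ 3)⁻¹ := by simp [pow_succ, mul_assoc]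
    _ = x := conj_eq_of_mem_centralizer h.cube hx

theorem exists_e (hE : E8 E) (hle : E ≤ S) (hn : S ≤ 𝐍(E)) :
    ∃ e ∈ S ⊓ 𝐂(U), e ∉ U ∧ e * e = 1 ∧ ∀ s ∈ S, s * e * s⁻¹ * e⁻¹ ∈ U := by
  obtain ⟨e, eE, eC, eU⟩ : ∃ e ∈ E, e ∈ 𝐂(U) ∧ e ∉ U := by
    by_contra! hc
    obtain ⟨a, ha, aU⟩ := exists_not_mem (A := U) (B := E) (by rw [hE.card, h.four.card]; norm_num)
    have aC : a ∉ 𝐂(U) := fun e => aU (hc a ha e)
    have key : ∀ x ∈ E, x ∈ U ∨ x * a ∈ U := fun x hx => by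
      by_cases e : x ∈ 𝐂(U)
      · exact .inl (hc x hx e)
      refine .inr (hc _ (mul_mem hx ha) (mem_centralizer_iff.2 fun w hw => (comm_of_cj ?_).symm))
      have e1 : x * a * u * (x * a)⁻¹ = u := by
        rw [show x * a * u * (x * a)⁻¹ = x * (a * u * a⁻¹) * x⁻¹ by group, h.cj_u (hle ha) aC, cj_mul,
          h.cj_z (hle hx), h.cj_u (hle hx) e, ← mul_assoc, h.four.aa, one_mul]
      have e2 := h.cj_z (hle (mul_mem hx ha))
      rcases h.four.mem_iff.1 hw with rfl | rfl | rfl | rfl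
      exacts [by group, e2, e1, by rw [cj_mul, e1, e2]]
    have fixU : ∀ x ∈ E, x ∈ U → x = 1 ∨ x = z := fun x hx xU => by
      have e := E8.cj hE ha hx
      rcases h.four.mem_iff.1 xU with rfl | rfl | rfl | rfl
      · exact .inl rfl
      · exact .inr rfl
      · exact absurd (e.symm.trans (h.cj_u (hle ha) aC)).symm h.four.mul_ne_right
      · rw [cj_mul, h.cj_z (hle ha), h.cj_u (hle ha) aC] at e
        exact absurd (mul_left_cancel e) h.four.mul_ne_right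
    obtain ⟨c, hc', cn⟩ := exists_not_mem (A := zpowers z ⊔ zpowers a) (B := E) (by
      rw [hE.card, card_sp2 h.four.aa (hE.sq a ha) (comm_of_cj (h.cj_z (hle ha))).symm (sq_of_orderOf h.four.ha).2
        (fun e => aU (e ▸ one_mem _)) fun e => aU (e ▸ h.four.mem_left)]
      norm_num)
    have zm : ∀ x, x = 1 ∨ x = z → x ∈ zpowers z ⊔ zpowers a := by
      rintro x (rfl | rfl)
      exacts [one_mem _, m2l _ _]
    rcases key c hc' with e | e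
    · exact cn (zm c (fixU c hc' e))
    · exact cn (by simpa using mul_mem (zm _ (fixU _ (mul_mem hc' ha) e)) (inv_mem (m2r z a)))
  refine ⟨e, ⟨hle eE, eC⟩, eU, hE.sq e eE, fun s hs => ?_⟩
  have e1 := conj_mem_of_mem_normalizer (hn hs) eE
  exact h.congr eC (hE.sq e eE) eU (conj_mem_of_mem_normalizer (h.nrmT hs) ⟨hle eE, eC⟩).2 (hE.sq _ e1)
    (fun e' => eU (by simpa [mul_assoc] using conj_mem_of_mem_normalizer' (h.nrm hs) e')) (comm_of_sq hE.sq eE e1)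

/-- **VV** -/
theorem vv (hE : E8 E) (hle : E ≤ S) (hn : S ≤ 𝐍(E)) : ∃ V f, VD S U V z u b f := by
  obtain ⟨e, eT, eU, e2, ec⟩ := h.exists_e hE hle hn
  have nU : S ⊓ 𝐂(U) ≤ 𝐍(U) := inf_le_left.trans h.nrm
  have eD : e ∈ omZ _ U nU := ⟨eT, fun x hx => ec x hx.1, e2 ▸ one_mem _⟩
  have bD := norm_omZ nU h.nT h.nU
  have UD := le_omZ nU h.le0
  have out : ∀ {g x}, g ∈ 𝐍(U) → x ∉ U → g * x * g⁻¹ ∉ U := fun hg hx e' =>
    hx (by simpa [mul_assoc] using conj_mem_of_mem_normalizer' hg e')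
  have fc : ∀ {x}, x ∈ omZ _ U nU → x ∉ U → b * x * b⁻¹ * x⁻¹ ∈ U →
      ∃ w ∈ omZ _ U nU, w ∉ U ∧ w * x⁻¹ ∈ U ∧ b * w * b⁻¹ = w := fun {x} hx xU e' => by
    obtain ⟨w, h1, h2⟩ := h.fix_coset h.four.isPGroup h.nU e'
    exact ⟨w, by simpa using mul_mem (UD h1) hx, fun e => xU (by simpa using mul_mem (inv_mem h1) e), h1, h2⟩
  obtain ⟨f, fD, fU, bf⟩ : ∃ f ∈ omZ _ U nU, f ∉ U ∧ b * f * b⁻¹ = f := by
    by_contra! hc
    have nm := H45.NE8.nm_of_fpf bD (centralizer_anti (show omZ _ U nU ≤ S ⊓ 𝐂(U) from fun x hx => hx.1) h.cube) fun x hx e' =>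
      h.fpfU (by_contra fun xU => hc x hx xU e') e'
    obtain ⟨w, h1, h2, -, h3⟩ := fc eD eU (h.congr eT.2 e2 eU (conj_mem_of_mem_normalizer h.nT eT).2 (sq_cj b e2)
      (out h.nU eU) (nm.comm eD))
    exact hc w h1 h2 h3
  have sq : ∀ {x}, x ∈ omZ _ U nU → b * x * b⁻¹ = x → x * x = 1 := fun hx e' =>
    h.fpfU hx.2.2 (by rw [cj_mul, e'])
  have f2 := sq fD bf
  have fC := fD.1.2
  have key : ∀ s ∈ S, s * f * s⁻¹ * f⁻¹ ∈ U := fun s hs => by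
    by_cases e' : s ∈ 𝐂(U)
    · exact fD.2.1 s ⟨hs, e'⟩
    have f1 := conj_mem_of_mem_normalizer (norm_omZ nU (h.nrmT hs) (h.nrm hs)) fD
    obtain ⟨w, h1, h2, h3, h4⟩ := fc f1 (out (h.nrm hs) fU) (by
      have : b * (s * f * s⁻¹) * b⁻¹ = b * s * b * s⁻¹ * (s * f * s⁻¹) * (b * s * b * s⁻¹)⁻¹ := by
        conv_lhs => rw [← bf]
        group
      rw [this]; exact f1.2.1 _ (h.inv s hs e'))
    have h5 := h.congr fC f2 fU h1.1.2 (sq h1 h4) h2 (mul_inv_eq_iff_eq_mul.1 (mul_inv_eq_one.1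
      (h.fpfU (h1.2.1 f fD.1) (by simp only [cj_mul b, ← conj_inv, bf, h4]))))
    simpa [mul_assoc] using mul_mem (inv_mem h3) h5
  refine ⟨U ⊔ zpowers f, f, h, h.e8_adj fC f2 fU, le_sup_left, sup_le h.le (zpowers_le.2 fD.1.1),
    fun s hs => nrm_of fun x hx => ?_, mem_sup_right (mem_zpowers f), fU, bf⟩
  have fm : s * f * s⁻¹ ∈ U ⊔ zpowers f := by
    simpa using mul_mem (mem_sup_left (key s hs) : _ ∈ U ⊔ zpowers f) (mem_sup_right (mem_zpowers f))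
  rcases (mem_adj f2 fC).1 hx with e' | e'
  · exact mem_sup_left (conj_mem_of_mem_normalizer (h.nrm hs) e')
  · have := mul_mem (mem_sup_left (conj_mem_of_mem_normalizer (h.nrm hs) e') : _ ∈ U ⊔ zpowers f) (inv_mem fm)
    simpa [mul_assoc] using this

end PD

namespace VD

variable (h : VD S U V z u b f)
include h

theorem f2 : f * f = 1 := h.e8.sq f h.fV

theorem V_le : V ≤ S ⊓ 𝐂(U) := le_inf h.leV ((E8.le_cent h.e8).trans (centralizer_anti h.sub))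

theorem eq : V = U ⊔ zpowers f :=
  (E8.eq_of_le (h.e8_adj (h.V_le h.fV).2 h.f2 h.fU) h.e8 (sup_le h.sub (zpowers_le.2 h.fV))).symm

theorem mem : x ∈ V ↔ x ∈ U ∨ x * f ∈ U := by
  rw [h.eq]; exact mem_adj h.f2 (h.V_le h.fV).2

theorem nV : b ∈ 𝐍(V) := nrm_of fun x hx => h.mem.2 ((h.mem.1 hx).imp (conj_mem_of_mem_normalizer h.nU)
  fun e => by have := conj_mem_of_mem_normalizer h.nU e; rwa [cj_mul, h.bf] at this)

theorem fixV (hx : x ∈ V) (e : b * x * b⁻¹ = x) : x = 1 ∨ x = f :=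
  (h.mem.1 hx).imp (h.fpfU · e) fun e' => by
    have := h.fpfU e' (by rw [cj_mul, e, h.bf])
    rw [mul_eq_one_iff_eq_inv.1 this, inv_of_sq h.f2]

theorem A_le : S ⊓ 𝐂(V) ≤ S ⊓ 𝐂(U) := inf_le_inf_left _ (centralizer_anti h.sub)

theorem V_leA : V ≤ S ⊓ 𝐂(V) := le_inf h.leV (E8.le_cent h.e8)

theorem nrmA : S ≤ 𝐍(S ⊓ 𝐂(V)) := H69.le_normalizer_inf le_normalizer (H69.le_normalizer_centralizer h.nrmV)

theorem nA : b ∈ 𝐍(S ⊓ 𝐂(V)) := nrm_of fun x hx => ⟨(conj_mem_of_mem_normalizer h.nT (h.A_le hx)).1,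
  conj_mem_of_mem_normalizer (H69.le_normalizer_centralizer (zpowers_le.2 h.nV) (mem_zpowers b)) hx.2⟩

theorem omA (hx : x ∈ 𝐂(V)) (h2 : x * x = 1) : x ∈ V := h.e8.mem_of_cent h.rk h2 hx

/-- **A0** -/
theorem a0 (hn : ¬ S ⊓ 𝐂(V) ≤ V) : ∃ l ∈ S ⊓ 𝐂(V), l * l = z ∧ (∀ s ∈ S, s * l * s⁻¹ * l⁻¹ ∈ V) ∧
    l * (b * l * b⁻¹) = b * l * b⁻¹ * l ∧ l * (b * l * b⁻¹) * (b * (b * l * b⁻¹) * b⁻¹) = 1 ∧
    ∀ s ∈ S, s ∉ 𝐂(U) → s * (b * l * b⁻¹) * s⁻¹ * (l * (b * l * b⁻¹))⁻¹ ∈ V := by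
  have nV : S ⊓ 𝐂(U) ≤ 𝐍(V) := inf_le_left.trans h.nrmV
  have bX := norm_omZ nV h.nT h.nV
  have sqf : ∀ {x s}, x ∈ 𝐂(V) → s * x * s⁻¹ * x⁻¹ ∈ V → s * (x * x) * s⁻¹ = x * x := fun {x s} hx e => by
    calc _ = s * x * s⁻¹ * x⁻¹ * (x * (s * x * s⁻¹ * x⁻¹) * x⁻¹) * (x * x) := by group
      _ = _ := by rw [conj_eq_of_mem_centralizer hx e, h.e8.sq _ e, one_mul]
  -- the norm of an element of `X ∩ A` lies in `V`
  have nrmV : ∀ {x}, x ∈ omZ _ V nV → x ∈ S ⊓ 𝐂(V) →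
      x * (b * x * b⁻¹) * (b * (b * x * b⁻¹) * b⁻¹) ∈ V := fun {x} hx xA => by
    have x1 := conj_mem_of_mem_normalizer bX hx
    have x2 := conj_mem_of_mem_normalizer bX x1
    have a1 := conj_mem_of_mem_normalizer h.nA xA
    have a2 := conj_mem_of_mem_normalizer h.nA a1
    obtain ⟨w, w1, w2⟩ := h.fix_coset (isP_of_sq h.e8.sq) h.nV
      (v := x * (b * x * b⁻¹) * (b * (b * x * b⁻¹) * b⁻¹)) (by
        rw [cj_mul, cj_mul, h.c3 hx.1]
        convert hx.2.1 _ (mul_mem x1 x2).1 using 1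
        group)
    have wX : w ∈ omZ _ V nV := inv_mul_cancel_right w _ ▸ mul_mem (le_omZ nV h.V_le w1) (mul_mem (mul_mem hx x1) x2)
    have wA : w ∈ S ⊓ 𝐂(V) := inv_mul_cancel_right w _ ▸ mul_mem (h.V_leA w1) (mul_mem (mul_mem xA a1) a2)
    have wV := h.omA wA.2 (h.fpfU (h.omT (h.V_le wX.2.2) (h.e8.sq _ wX.2.2) fun t ht => sqf wA.2 (wX.2.1 t ht))
      (by rw [cj_mul, w2]))
    simpa using mul_mem (inv_mem w1) wV
  obtain ⟨k, kA, kV, k2, kc⟩ := H45.NE8.exists_cen_mod h.two h.two.to_inf_left h.nrmA h.nrmV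
    (inf_le_left.trans h.nrmV) hn
  have kX : k ∈ omZ _ V nV := ⟨h.A_le kA, fun x hx => kc x hx.1, k2⟩
  have kz : k * k = z := (h.uniq _ (h.leV k2) (fun s hs => mcs.2 (sqf kA.2 (kc s hs))) (h.e8.sq _ k2)).resolve_left
    fun e => kV (h.omA kA.2 e)
  obtain ⟨p, ep⟩ : ∃ p, p = k * (b * k * b⁻¹) * (b * (b * k * b⁻¹) * b⁻¹) := ⟨_, rfl⟩
  have pV : p ∈ V := ep ▸ nrmV kX kA
  have p2 := h.e8.sq p pV
  have bp : b * p * b⁻¹ = p := by
    conv_rhs => rw [← conj_eq_of_mem_centralizer (inv_mem kA.2) pV]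
    rw [ep, cj_mul, cj_mul, h.c3 kX.1]
    group
  have cp : ∀ {x}, x ∈ S ⊓ 𝐂(V) → p * x = x * p := fun hx => hx.2 p pV
  have k1 := conj_mem_of_mem_normalizer h.nA kA
  have k3 := conj_mem_of_mem_normalizer h.nA k1
  obtain ⟨l, el⟩ : ∃ l, l = k * p := ⟨_, rfl⟩
  have lA : l ∈ S ⊓ 𝐂(V) := el ▸ mul_mem kA (h.V_leA pV)
  have lz : l * l = z := by
    rw [el, show k * p * (k * p) = k * (p * k) * p by group, cp kA, show k * (k * p) * p = k * k * (p * p) by group,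
      p2, kz, mul_one]
  have lc : ∀ s ∈ S, s * l * s⁻¹ * l⁻¹ ∈ V := fun s hs => by
    have := mul_mem (kc s hs) (conj_mem_of_mem_normalizer (h.nrmV kA.1)
      (mul_mem (conj_mem_of_mem_normalizer (h.nrmV hs) pV) (inv_mem pV)))
    convert this using 1
    rw [el]; group
  have ln : l * (b * l * b⁻¹) * (b * (b * l * b⁻¹) * b⁻¹) = 1 := by
    rw [el, cj_mul b k, bp, cj_mul b _ p, bp]
    have c1 := cp k1
    have c3 := cp k3
    generalize b * (b * k * b⁻¹) * b⁻¹ = n at ep c3 ⊢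
    generalize b * k * b⁻¹ = m at ep c1 ⊢
    calc _ = k * (p * m) * (p * n) * p := by group
      _ = k * m * (p * n) * (p * p) := by rw [c1, c3, ← mul_assoc k m p, mul_assoc _ p, ← mul_assoc p, c3]; group
      _ = 1 := by rw [c3, p2, mul_one, ← mul_assoc, ← ep, p2]
  have lX : l ∈ omZ _ V nV := ⟨h.A_le lA, fun x hx => lc x hx.1, lz ▸ h.sub h.four.mem_left⟩
  have mX := conj_mem_of_mem_normalizer bX lX
  have mu : b * l * b⁻¹ * (b * l * b⁻¹) = u := by rw [← cj_mul, lz, h.rz]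
  have nu : b * (b * l * b⁻¹) * b⁻¹ * (b * (b * l * b⁻¹) * b⁻¹) = z * u := by rw [← cj_mul, mu, h.ru]
  have en : b * (b * l * b⁻¹) * b⁻¹ = (l * (b * l * b⁻¹))⁻¹ := (mul_eq_one_iff_inv_eq.1 ln).symm
  refine ⟨l, lA, lz, lc, ?_, ln, fun s hs hs' => ?_⟩
  · rw [en, ← mul_inv_rev, inv_eq_iff_eq_inv, inv_of_sq (h.sqU h.four.mem_mul), ← lz, ← mu] at nu
    generalize b * l * b⁻¹ = m at nu
    calc l * m = l⁻¹ * (l * l * (m * m)) * m⁻¹ := by group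
      _ = _ := by rw [← nu]; group
  · have tT := h.inv s hs hs'
    have l1 := conj_mem_of_mem_normalizer (norm_omZ nV (h.nrmT hs) (h.nrmV hs)) lX
    have e1 := conj_mem_of_mem_normalizer' h.nV (mul_mem (l1.2.1 _ tT) (lc s hs))
    have e2 : b⁻¹ * l * b = (l * (b * l * b⁻¹))⁻¹ := by
      rw [← en]
      conv_lhs => rw [← h.c3 lX.1]
      group
    have e3 := mul_mem e1 (inv_mem (mul_mem lX mX).2.2)
    convert e3 using 1
    calc _ = s * (b * l * b⁻¹) * s⁻¹ * (b⁻¹ * l * b)⁻¹ * (b⁻¹ * l * b) * (l * (b * l * b⁻¹))⁻¹ := by group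
      _ = _ := by rw [mul_assoc _ (b⁻¹ * l * b), e2, ← mul_inv_rev (l * _), ← e2]; group

end VD

end H22.RG
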