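import Mathlib
import Cfsg.Agent.Base
import Cfsg.Agent.Lib.Rk3G.VV

/-! The action of `C_S(U)` on `V`; an element inverting `b`. -/

set_option autoImplicit false
set_option linter.unusedSectionVars false
set_option linter.unusedVariables false

namespace H22.RG

open Subgroup H69 H70 Cfsg H22.RK
open scoped commutatorElement Pointwise

variable {G : Type*} [Group G] [Finite G] {S T U V E K N : Subgroup G} {z u b f s t x y v g : G}

theorem card_le_two {A B : Subgroup G} (h : ∀ x ∈ B, x ∈ A ∨ x * g ∈ A) : Nat.card B ≤ 2 * Nat.card A := by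
  rw [H83.Mac.card_eq_ncard, H83.Mac.card_eq_ncard, two_mul]
  refine (Set.ncard_le_ncard (t := (A : Set G) ∪ (· * g⁻¹) '' A) (fun x hx => (h x hx).imp_right
    fun e => ⟨_, e, by simp⟩)).trans ((Set.ncard_union_le _ _).trans ?_)
  rw [Set.ncard_image_of_injective _ (mul_left_injective _)]

/-- the commutator with `f` -/
def cf (f x : G) : G := x * f * x⁻¹ * f⁻¹

theorem cf_cj (e : g * f * g⁻¹ = f) (x : G) : cf f (g * x * g⁻¹) = g * cf f x * g⁻¹ := by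
  unfold cf
  conv_lhs => rw [← e]
  group

namespace PD

variable (h : PD S U z u b)
include h

theorem mul_out (hs : s ∈ S) (hn : s ∉ 𝐂(U)) (ht : t ∈ S) (hm : t ∉ 𝐂(U)) : s * t ∈ S ⊓ 𝐂(U) := by
  refine ⟨mul_mem hs ht, mem_centralizer_iff.2 fun w hw => (comm_of_cj ?_).symm⟩
  have e1 : s * t * u * (s * t)⁻¹ = u := by
    rw [show s * t * u * (s * t)⁻¹ = s * (t * u * t⁻¹) * s⁻¹ by group, h.cj_u ht hm, cj_mul,
      h.cj_z hs, h.cj_u hs hn, ← mul_assoc, h.four.aa, one_mul]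
  have e2 := h.cj_z (mul_mem hs ht)
  rcases h.four.mem_iff.1 hw with rfl | rfl | rfl | rfl
  exacts [by group, e2, e1, by rw [cj_mul, e1, e2]]

theorem fix_out (hs : s ∈ S) (hn : s ∉ 𝐂(U)) (hx : x ∈ U) (e : s * x * s⁻¹ = x) : x = 1 ∨ x = z := by
  rcases h.four.mem_iff.1 hx with rfl | rfl | rfl | rfl
  · exact .inl rfl
  · exact .inr rfl
  · exact absurd (e.symm.trans (h.cj_u hs hn)).symm h.four.mul_ne_right
  · rw [cj_mul, h.cj_z hs, h.cj_u hs hn] at e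
    exact absurd (mul_left_cancel e) h.four.mul_ne_right

theorem exists_t : ∃ t ∈ S, t ∉ 𝐂(U) ∧ t * b * t⁻¹ = b⁻¹ := by
  haveI : Fact (Nat.Prime 3) := ⟨Nat.prime_three⟩
  obtain ⟨s, hs, hs'⟩ := h.exists_out
  obtain ⟨k, hk⟩ := h.three
  have hP : IsPGroup 3 (zpowers b) := IsPGroup.of_card_dvd_pow (n := k) (by
    rw [Nat.card_zpowers]; exact orderOf_dvd_of_pow_eq_one hk)
  have hβ : zpowers b ≤ 𝐍(S ⊓ 𝐂(U)) := zpowers_le.2 h.nT
  have hco : ∀ x ∈ S ⊓ 𝐂(U), x ^ 3 ^ k = 1 → x = 1 := fun x hx e => by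
    obtain ⟨j, hj⟩ := H69.isPGroup_iff_mem.1 h.two x hx.1
    have := Nat.dvd_gcd (orderOf_dvd_of_pow_eq_one hj) (orderOf_dvd_of_pow_eq_one e)
    rw [(Nat.Coprime.pow j k (by norm_num : Nat.Coprime 2 3)).gcd_eq_one] at this
    exact orderOf_eq_one_iff.1 (Nat.dvd_one.1 this)
  have hSy : IsSylowIn 3 (zpowers b) (S ⊓ 𝐂(U) ⊔ zpowers b) := by
    refine isSylowIn_of_not_dvd_relIndex hP le_sup_right fun hd => ?_
    rw [(H45.mulEq_of_norm hβ).relIndex_right] at hd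
    obtain ⟨j, hj⟩ := IsPGroup.iff_card.1 h.twoT
    have := hd.trans (relIndex_dvd_card _ _)
    rw [hj] at this
    exact absurd (Nat.prime_three.dvd_of_dvd_pow this) (by norm_num)
  have hx := h.inv s hs hs'
  have e : s * b * s⁻¹ = b⁻¹ * (b * s * b * s⁻¹) := by group
  obtain ⟨g, hg, hle⟩ := hSy.exists_cj_le (isPGroup_cj hP s) (by
    rw [cj_zpowers, zpowers_le, e]
    exact mul_mem (mem_sup_right (inv_mem (mem_zpowers b))) (mem_sup_left hx))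
  obtain ⟨d, hb, c, hc, rfl⟩ := (mem_sup_of_le_normalizer_right hβ).1 (sup_comm (S ⊓ 𝐂(U)) _ ▸ hg)
  have h1 : c * s * b * (c * s)⁻¹ ∈ zpowers b := by
    have := conj_mem_of_mem_normalizer' (le_normalizer hb) (hle (cj_mem _ (cj_mem s (mem_zpowers b))))
    convert this using 1; group
  have h2 : c * s ∉ 𝐂(U) := fun H => hs' (((𝐂(U)).mul_mem_cancel_left hc.2).1 H)
  refine ⟨c * s, mul_mem hc.1 hs, h2, ?_⟩
  have h4 := h.inv _ (mul_mem hc.1 hs) h2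
  have h5 : b * (c * s) * b * (c * s)⁻¹ ∈ zpowers b := by
    rw [mul_assoc b, mul_assoc b]; exact mul_mem (mem_zpowers b) h1
  obtain ⟨i, hi⟩ := mem_zpowers_iff.1 h5
  have := hco _ h4 (by rw [← hi, ← zpow_natCast, ← zpow_mul, mul_comm, zpow_mul, zpow_natCast, hk, one_zpow])
  rw [eq_inv_iff_mul_eq_one]
  calc _ = b⁻¹ * (b * (c * s) * b * (c * s)⁻¹) * b := by group
    _ = 1 := by rw [this]; group

end PD

namespace VD

variable (h : VD S U V z u b f)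
include h

theorem fT : f ∈ S ⊓ 𝐂(U) := h.V_le h.fV

theorem cf_mem (hs : s ∈ S) : cf f s ∈ U := by
  have := (h.mem.1 (conj_mem_of_mem_normalizer (h.nrmV hs) h.fV)).resolve_left fun e =>
    h.fU (by simpa [mul_assoc] using conj_mem_of_mem_normalizer' (h.nrm hs) e)
  rwa [cf, inv_of_sq h.f2]

theorem cf_mul (hx : x ∈ S ⊓ 𝐂(U)) (hy : y ∈ S) : cf f (x * y) = cf f x * cf f y := by
  rw [comm_of_sq (fun _ => h.sqU) (h.cf_mem hx.1) (h.cf_mem hy)]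
  conv_rhs => rw [← conj_eq_of_mem_centralizer hx.2 (h.cf_mem hy)]
  unfold cf; group

theorem cf_eq_one (hx : x ∈ S ⊓ 𝐂(U)) : cf f x = 1 ↔ x ∈ S ⊓ 𝐂(V) :=
  ⟨fun e => ⟨hx.1, h.eq ▸ cent_sup hx.2 (cent_zpowers (comm_of_cj (mul_inv_eq_one.1 e)).symm)⟩,
    fun e => mul_inv_eq_one.2 (conj_eq_of_mem_centralizer e.2 h.fV)⟩

theorem cf_V (hx : x ∈ V) : cf f x = 1 := (h.cf_eq_one (h.V_le hx)).2 (h.V_leA hx)

theorem cf_inv (hx : x ∈ S ⊓ 𝐂(U)) : cf f x⁻¹ = cf f x := by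
  have := h.cf_mul hx (inv_mem hx.1)
  rw [mul_inv_cancel, h.cf_V (one_mem _), eq_comm, mul_eq_one_iff_inv_eq] at this
  rw [← this, inv_of_sq (h.sqU (h.cf_mem hx.1))]

theorem cf_b (x : G) : cf f (b * x * b⁻¹) = b * cf f x * b⁻¹ := cf_cj h.bf x

theorem congr_A (hx : x ∈ S ⊓ 𝐂(U)) (hy : y ∈ S ⊓ 𝐂(U)) (e : cf f x = cf f y) : x * y⁻¹ ∈ S ⊓ 𝐂(V) :=
  (h.cf_eq_one (mul_mem hx (inv_mem hy))).1 (by rw [h.cf_mul hx (inv_mem hy.1), h.cf_inv hy, e, h.sqU (h.cf_mem hy.1)])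

theorem sq_A (hx : x ∈ S ⊓ 𝐂(U)) : x * x ∈ S ⊓ 𝐂(V) :=
  (h.cf_eq_one (mul_mem hx hx)).1 (by rw [h.cf_mul hx hx.1, h.sqU (h.cf_mem hx.1)])

theorem exists_cf : ∃ x ∈ S ⊓ 𝐂(U), cf f x = z := by
  obtain ⟨x, hx, e⟩ : ∃ x ∈ S ⊓ 𝐂(U), cf f x ≠ 1 := by
    by_contra! hc
    exact h.fU (h.omT h.fT h.f2 fun t ht => mul_inv_eq_one.1 (hc t ht))
  have h1 := conj_mem_of_mem_normalizer h.nT hx
  rcases h.four.mem_iff.1 (h.cf_mem hx.1) with e' | e' | e' | e'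
  · exact absurd e' e
  · exact ⟨x, hx, e'⟩
  · exact ⟨_, conj_mem_of_mem_normalizer h.nT h1, by
      rw [h.cf_b, h.cf_b, e', h.ru, h.four.rot_third h.rz h.ru]⟩
  · exact ⟨_, h1, by rw [h.cf_b, e', h.four.rot_third h.rz h.ru]⟩

theorem fix_A (hx : x ∈ S ⊓ 𝐂(U)) (e : b * x * b⁻¹ = x) : x ∈ S ⊓ 𝐂(V) :=
  (h.cf_eq_one hx).1 (h.fpfU (h.cf_mem hx.1) (by rw [← h.cf_b, e]))

theorem tf (ht : t ∈ S) (e : t * b * t⁻¹ = b⁻¹) : t * f * t⁻¹ = f :=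
  (h.fixV (conj_mem_of_mem_normalizer (h.nrmV ht) h.fV) (by
    calc _ = (t * b * t⁻¹)⁻¹ * (t * (b * f * b⁻¹) * t⁻¹) * (t * b * t⁻¹)⁻¹⁻¹ := by rw [h.bf, e, inv_inv]
      _ = _ := by group)).resolve_left fun e' => h.fU (conj_eq_one_iff.1 e' ▸ one_mem _)

theorem fix_tt (e : t * b * t⁻¹ = b⁻¹) : b * (t * t) * b⁻¹ = t * t := cj_symm (by
  calc t * t * b * (t * t)⁻¹ = t * (t * b * t⁻¹) * t⁻¹ := by group
    _ = t * b⁻¹ * t⁻¹ := by rw [e]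
    _ = (t * b * t⁻¹)⁻¹ := by group
    _ = b := by rw [e, inv_inv])

end VD

end H22.RG
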