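import Mathlib
import Cfsg.Agent.Base
import Cfsg.Agent.Lib.Rk3G.VT

/-! The case of a self-centralising normal `E₈`: the Sylow subgroup has order 64 and type `G₂(3)`. -/

set_option autoImplicit false
set_option linter.unusedSectionVars false
set_option linter.unusedVariables false

namespace H22.RG

open Subgroup H69 H70 Cfsg H22.RK
open scoped commutatorElement Pointwise

variable {G : Type*} [Group G] [Finite G] {S T U V E K N M : Subgroup G} {z u b f s t x y v g : G}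

namespace VD

variable (h : VD S U V z u b f) (hA : S ⊓ 𝐂(V) ≤ V)
include h hA

theorem sqT (hy : y ∈ S ⊓ 𝐂(U)) : y * y ∈ U := by
  rcases h.mem.1 (hA (h.sq_A hy)) with e | e
  · exact e
  have e1 := conj_eq_of_mem_centralizer hy.2 e
  rw [cj_mul, show y * (y * y) * y⁻¹ = y * y by group, mul_right_inj] at e1
  rw [h.e8.sq y (hA ((h.cf_eq_one hy).1 (mul_inv_eq_one.2 e1)))]
  exact one_mem _

theorem cmT (hx : x ∈ S ⊓ 𝐂(U)) (hy : y ∈ S ⊓ 𝐂(U)) : x * y * x⁻¹ * y⁻¹ ∈ U :=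
  H45.NE8.comm_mem_of_sq (inf_le_left.trans h.nrm) (fun _ => h.sqT hA) hx hy

/-- the subgroup `[T, b]` -/
theorem exists_M : ∃ M, M ≤ S ⊓ 𝐂(U) ∧ U ≤ M ∧ f ∉ M ∧ b ∈ 𝐍(M) ∧ (∀ y ∈ S ⊓ 𝐂(U), y ∈ M ∨ y * f ∈ M) ∧
    ∀ t ∈ S, t * b * t⁻¹ = b⁻¹ → t ∈ 𝐍(M) := by
  have nU : S ⊓ 𝐂(U) ≤ 𝐍(U) := inf_le_left.trans h.nrm
  have hm := fun x hx y hy => h.cmT hA (x := x) (y := y) hx hy
  have c := fun {x} (hx : x ∈ S ⊓ 𝐂(U)) => conj_mem_of_mem_normalizer h.nT hx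
  have cu := fun {x} (hx : x ∈ U) => conj_mem_of_mem_normalizer h.nU hx
  refine ⟨nrmSub _ U b h.nT nU hm, fun x hx => hx.1, fun x hx => ⟨h.le0 hx, mul_mem (mul_mem hx (cu hx)) (cu (cu hx))⟩,
    fun e => h.fU (by have := e.2; rwa [h.bf, h.bf, h.f2, one_mul] at this),
    nrm_of fun x hx => ⟨c hx.1, by have := cu hx.2; rwa [cj_mul, cj_mul] at this⟩, fun y hy => ?_,
    fun t ht e => nrm_of fun y hy => ⟨conj_mem_of_mem_normalizer (h.nrmT ht) hy.1, ?_⟩⟩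
  · have e1 : cf f (y * (b * y * b⁻¹) * (b * (b * y * b⁻¹) * b⁻¹)) = 1 := by
      rw [h.cf_mul (mul_mem hy (c hy)) (c (c hy)).1, h.cf_mul hy (c hy).1, h.cf_b (b * y * b⁻¹), h.cf_b y]
      have r3 := h.four.rot_third h.rz h.ru
      rcases h.four.mem_iff.1 (h.cf_mem hy.1) with e | e | e | e <;> rw [e]
      · simp
      · rw [h.rz, h.ru, h.sqU h.four.mem_mul]
      · rw [h.ru, r3, mul_assoc, h.four.commute h.four.mem_mul h.four.mem_left, ← mul_assoc z, h.four.aa, one_mul,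
          h.four.bb]
      · rw [r3, h.rz, mul_assoc, h.sqU h.four.mem_mul]
    refine (h.mem.1 (hA ((h.cf_eq_one (mul_mem (mul_mem hy (c hy)) (c (c hy)))).1 e1))).imp (fun e => ⟨hy, e⟩)
      fun e => ⟨mul_mem hy h.fT, ?_⟩
    have e2 := H45.NE8.swap_mem nU hm hy (mul_mem (c hy) h.fT) h.fT (b := b * (b * y * b⁻¹) * b⁻¹ * f)
      (by rwa [mul_assoc _ f f, h.f2, mul_one, ← mul_assoc])
    rw [cj_mul b y, h.bf, cj_mul b _ f, h.bf]
    simpa only [mul_assoc, mul_one] using e2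
  · have e1 := H45.NE8.swap_mem nU hm hy.1 (c hy.1) (c (c hy.1)) (b := 1) (by simpa only [mul_assoc, mul_one] using hy.2)
    have e2 := conj_mem_of_mem_normalizer (h.nrm ht) e1
    have e3 : b * (b * y * b⁻¹) * b⁻¹ = b⁻¹ * y * b := by
      conv_rhs => rw [← h.c3 hy.1]
      group
    have e5 : ∀ w, b * (t * w * t⁻¹) * b⁻¹ = t * (b⁻¹ * w * b) * t⁻¹ := fun w =>
      calc _ = (t * b * t⁻¹)⁻¹ * (t * w * t⁻¹) * (t * b * t⁻¹)⁻¹⁻¹ := by rw [e, inv_inv]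
        _ = _ := by group
    rw [e5, e5, ← e3]
    convert e2 using 1
    group

theorem av (F : H45.NE8.Fu G) (hS : IsSylowIn 2 S ⊤) : ∃ a ∈ S, ∃ t ∈ S, a * a = u ∧
    t * a * t⁻¹ * (t * a * t⁻¹) = z * u ∧ a * (t * a * t⁻¹) = t * a * t⁻¹ * a ∧ t * t = 1 ∧ t * f = f * t ∧
    f * a * f⁻¹ = a⁻¹ ∧ Nat.card S ≤ 64 := by
  obtain ⟨M, MT, UM, fM, bM, dec, nM⟩ := h.exists_M hA
  obtain ⟨t, tS, tU, tb⟩ := h.exists_t
  have tM := nM t tS tb
  have tf := h.tf tS tb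
  have VM : ∀ {y}, y ∈ M → y ∈ V → y ∈ U := fun hy hv => (h.mem.1 hv).resolve_right fun e =>
    fM ((M.mul_mem_cancel_left hy).1 (UM e))
  have cg : ∀ {x y}, x ∈ M → y ∈ M → cf f x = cf f y → x * y⁻¹ ∈ U := fun hx hy e =>
    VM (mul_mem hx (inv_mem hy)) (hA (h.congr_A (MT hx) (MT hy) e))
  have nm := H45.NE8.nm_of_fpf bM (centralizer_anti MT h.cube) fun y hy e =>
    h.fpfU (VM hy (hA (h.fix_A (MT hy) e))) e
  obtain ⟨x, xM, xz⟩ : ∃ x ∈ M, cf f x = z := by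
    obtain ⟨x, hx, e⟩ := h.exists_cf
    rcases dec x hx with e' | e'
    exacts [⟨x, e', e⟩, ⟨_, e', by rw [h.cf_mul hx h.fT.1, h.cf_V h.fV, mul_one, e]⟩]
  obtain ⟨a, ea⟩ : ∃ a, a = b * x * b⁻¹ := ⟨_, rfl⟩
  have aM : a ∈ M := ea ▸ conj_mem_of_mem_normalizer bM xM
  have au : cf f a = u := by rw [ea, h.cf_b, xz, h.rz]
  have xa : x * a = a * x := ea ▸ nm.comm xM
  have z1 := (sq_of_orderOf h.four.ha).2
  have cU : ∀ {w}, w ∈ U → cf f w = 1 := fun hw => h.cf_V (h.sub hw)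
  have xU : x ∉ U := fun e => z1 (xz.symm.trans (cU e))
  have aU : a ∉ U := fun e => (sq_of_orderOf h.four.hb).2 (au.symm.trans (cU e))
  have sqc : ∀ {w y}, y ∈ M → w * y⁻¹ ∈ U → w * w = y * y := fun {w y} hy e => by
    calc w * w = w * y⁻¹ * (y * (w * y⁻¹) * y⁻¹) * (y * y) := by group
      _ = _ := by rw [conj_eq_of_mem_centralizer (MT hy).2 e, h.sqU e, one_mul]
  have x2 : x * x = z := by
    refine (h.fix_out tS tU (h.sqT hA (MT xM)) ?_).resolve_left fun e => ?_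
    · rw [cj_mul]
      exact sqc xM (cg (conj_mem_of_mem_normalizer tM xM) xM (by rw [cf_cj tf, xz, h.cj_z tS]))
    · have := cU (h.congr (MT xM).2 e xU (MT aM).2 (ea ▸ sq_cj b e) aU xa)
      rw [h.cf_mul (MT aM) (inv_mem (MT xM).1), h.cf_inv (MT xM), au, xz, mul_eq_one_iff_eq_inv,
        inv_of_sq h.four.aa] at this
      exact h.four.ne this.symm
  have a2 : a * a = u := by rw [ea, ← cj_mul, x2, h.rz]
  have xa2 : x * a * (x * a) = z * u := by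
    rw [show x * a * (x * a) = x * (a * x) * a by group, ← xa, ← x2, ← a2]; group
  have cxa : cf f (x * a) = z * u := by rw [h.cf_mul (MT xM) (MT aM).1, xz, au]
  have cls : ∀ y ∈ M, ∃ w ∈ M, y * w⁻¹ ∈ U ∧ (w = 1 ∨ w = x ∨ w = a ∨ w = x * a) ∧ w * w = cf f y := fun y hy => by
    rcases h.four.mem_iff.1 (h.cf_mem (MT hy).1) with e | e | e | e
    · exact ⟨1, one_mem _, cg hy (one_mem _) (e.trans (cU (one_mem _)).symm), .inl rfl, by simp [e]⟩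
    · exact ⟨x, xM, cg hy xM (e.trans xz.symm), .inr (.inl rfl), x2.trans e.symm⟩
    · exact ⟨a, aM, cg hy aM (e.trans au.symm), .inr (.inr (.inl rfl)), a2.trans e.symm⟩
    · exact ⟨_, mul_mem xM aM, cg hy (mul_mem xM aM) (e.trans cxa.symm), .inr (.inr (.inr rfl)), xa2.trans e.symm⟩
  have sq : ∀ y ∈ M, y * y = cf f y := fun y hy => by
    obtain ⟨w, hw, e, -, e'⟩ := cls y hy
    exact (sqc hw e).trans e'
  have inv : ∀ y ∈ M, f * y * f⁻¹ = y⁻¹ := fun y hy => by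
    have e := sq _ (inv_mem hy)
    calc _ = y * cf f y⁻¹ := by unfold cf; group
      _ = _ := by rw [← e]; group
  have ab : ∀ y ∈ M, ∀ w ∈ M, y * w = w * y := fun y hy w hw => inv_injective (by
    rw [← inv _ (mul_mem hy hw), cj_mul, inv y hy, inv w hw, mul_inv_rev])
  have omM : ∀ y ∈ M, y * y = 1 → y ∈ U := fun y hy e =>
    VM hy (hA ((h.cf_eq_one (MT hy)).1 ((sq y hy).symm.trans e)))
  have fN : f ∈ 𝐍(M) := nrm_of fun y hy => inv y hy ▸ inv_mem hy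
  have out : ∀ s ∈ S, s ∉ 𝐂(U) → s * t⁻¹ ∈ S ⊓ 𝐂(U) := fun s hs e =>
    h.mul_out hs e (inv_mem tS) (mt inv_mem_iff.1 tU)
  rcases h.fixV (hA (h.fix_A (h.mul_out tS tU tS tU) (h.fix_tt tb))) (h.fix_tt tb) with t2 | t2
  · have a1 := conj_mem_of_mem_normalizer tM aM
    refine ⟨a, (MT aM).1, t, tS, a2, by rw [← cj_mul, a2, h.cj_u tS tU], ab _ aM _ a1, t2, comm_of_cj tf,
      inv a aM, ?_⟩
    have n1 := card_le_two (A := S ⊓ 𝐂(U)) (B := S) (g := t⁻¹) fun s hs =>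
      (em (s ∈ 𝐂(U))).imp (fun e => ⟨hs, e⟩) (out s hs)
    have n2 := card_le_two dec
    have xN : x ∈ 𝐍(U) := h.nrm (MT xM).1
    have xx : x * x ∈ U := x2 ▸ h.four.mem_left
    have n3 := card_le_two (A := U ⊔ zpowers x) (B := M) (g := a⁻¹) fun y hy => by
      obtain ⟨w, -, e, rfl | rfl | rfl | rfl, -⟩ := cls y hy
      · exact .inl (mem_sup_left (by simpa using e))
      · exact .inl ((H45.NE8.mem_sup_zp xN xx).2 (.inr e))
      · exact .inr (mem_sup_left e)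
      · exact .inr ((H45.NE8.mem_sup_zp xN xx).2 (.inr (by simpa [mul_assoc] using e)))
    rw [H45.NE8.card_sup_zp xN xx xU, h.four.card] at n3
    omega
  exfalso
  have sqo : ∀ s ∈ S, s ∉ 𝐂(U) → s * s * f ∈ M := fun s hs e => by
    have e1 : s * s * f = s * t⁻¹ * (t * (s * t⁻¹) * t⁻¹) := by
      calc _ = s * s * (f * f)⁻¹ * f := by rw [h.f2]; group
        _ = _ := by rw [← t2]; group
    rcases dec _ (out s hs e) with e' | e'
    · exact e1 ▸ mul_mem e' (conj_mem_of_mem_normalizer tM e')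
    · have := mul_mem e' (conj_mem_of_mem_normalizer fN (conj_mem_of_mem_normalizer tM e'))
      rw [cj_mul t, tf] at this
      convert this using 1
      calc _ = s * t⁻¹ * (f * f) * (t * (s * t⁻¹) * t⁻¹) := by rw [e1, h.f2, mul_one]
        _ = _ := by group
  have inT : ∀ s ∈ S, s * s ∈ M → s ∈ S ⊓ 𝐂(U) := fun s hs e => ⟨hs, by_contra fun e' =>
    fM ((M.mul_mem_cancel_left e).1 (sqo s hs e'))⟩
  have SM : S ≤ 𝐍(M) := fun s hs => by
    have TM : S ⊓ 𝐂(U) ≤ 𝐍(M) := fun y hy => (dec y hy).elim (fun e => le_normalizer e) fun e =>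
      ((𝐍(M)).mul_mem_cancel_right fN).1 (le_normalizer e)
    by_cases e : s ∈ 𝐂(U)
    exacts [TM ⟨hs, e⟩, ((𝐍(M)).mul_mem_cancel_right (inv_mem tM)).1 (TM (out s hs e))]
  have ft : f ∈ zpowers t := t2 ▸ mul_mem (mem_zpowers t) (mem_zpowers t)
  have cm := comm_mem_of_dec SM (MT.trans inf_le_left) (L := zpowers t) (fun _ e => zpowers_le.2 tS e)
    (fun s hs => by
      have k : ∀ y ∈ S ⊓ 𝐂(U), ∃ w ∈ zpowers t, y * w⁻¹ ∈ M := fun y hy => (dec y hy).elim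
        (fun e => ⟨1, one_mem _, by simpa using e⟩) fun e => ⟨f⁻¹, inv_mem ft, by simpa using e⟩
      by_cases e : s ∈ 𝐂(U)
      · exact k s ⟨hs, e⟩
      · obtain ⟨w, hw, e'⟩ := k _ (out s hs e)
        exact ⟨w * t, mul_mem hw (mem_zpowers t), by simpa [mul_assoc] using e'⟩)
    fun x hx y hy => by
      obtain ⟨i, rfl⟩ := mem_zpowers_iff.1 hx
      obtain ⟨j, rfl⟩ := mem_zpowers_iff.1 hy
      group
      exact one_mem _
  obtain ⟨g, g1, g2⟩ := F.transfer hS (MT.trans inf_le_left) cm h.f2 h.fT.1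
    (fun s hs s2 => dec s (inT s hs (s2 ▸ one_mem _))) (R := S ⊓ centralizer {f}) h.two.to_inf_left
    ⟨h.fT.1, mcs.2 (by group)⟩ inf_le_right
  have t1 := g2 (cj_mem g (⟨tS, mcs.2 tf⟩ : t ∈ S ⊓ centralizer {f}))
  have U1 : ∀ w ∈ U, g * w * g⁻¹ ∈ S ⊓ 𝐂(U) := fun w hw => inT _
    (g2 (cj_mem g (⟨h.le hw, mcs.2 (cj_symm (conj_eq_of_mem_centralizer h.fT.2 hw))⟩ : w ∈ S ⊓ centralizer {f})))
    (sq_cj g (h.sqU hw) ▸ one_mem _)
  have t3 : g * t * g⁻¹ * (g * t * g⁻¹) = g * f * g⁻¹ := by rw [← cj_mul, t2]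
  have f1 : f ≠ 1 := fun e => fM (e ▸ one_mem _)
  have t4 : g * t * g⁻¹ ∈ M := (dec _ (inT _ t1 (t3 ▸ g1))).resolve_right fun e => f1 (conj_eq_one_iff.1 (by
    have := inv _ e
    rw [← t3]
    calc _ = g * t * g⁻¹ * f * (f * (g * t * g⁻¹ * f) * f⁻¹) * (f * (f * f)⁻¹ * f) := by
          rw [h.f2, inv_one, mul_one, h.f2, mul_one, mul_assoc _ f, ← mul_assoc f, ← mul_assoc f, h.f2]; group
      _ = 1 := by rw [this, h.f2]; simp [h.f2]))
  have ut : g * u * g⁻¹ * (g * t * g⁻¹) * (g * u * g⁻¹)⁻¹ = g * z * g⁻¹ * (g * t * g⁻¹) := by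
    rw [← cj_mul g z, show g * u * g⁻¹ * (g * t * g⁻¹) * (g * u * g⁻¹)⁻¹ = g * (u * (t * u * t⁻¹)⁻¹ * t) * g⁻¹ by group,
      h.cj_u tS tU, mul_inv_rev, mul_inv_cancel_left, inv_of_sq h.four.aa]
  rcases dec _ (U1 u h.four.mem_right) with e | e
  · rw [cj_of_comm (ab _ e _ t4), right_eq_mul] at ut
    exact z1 (conj_eq_one_iff.1 ut)
  · have e1 := cj_of_comm (ab _ e _ (inv_mem t4))
    rw [show g * u * g⁻¹ * f * (g * t * g⁻¹)⁻¹ * (g * u * g⁻¹ * f)⁻¹ =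
      g * u * g⁻¹ * (f * (g * t * g⁻¹)⁻¹ * f⁻¹) * (g * u * g⁻¹)⁻¹ by group, inv _ (inv_mem t4), inv_inv, ut,
      eq_inv_iff_mul_eq_one, mul_assoc, t3, ← cj_mul, conj_eq_one_iff, mul_eq_one_iff_inv_eq,
      inv_of_sq h.four.aa] at e1
    exact h.fU (e1 ▸ h.four.mem_left)

end VD

end H22.RG
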